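import Mathlib
import Cfsg.Agent.QP.Split

set_option autoImplicit false
set_option linter.unusedSimpArgs false

/-! Families of root subgroups `{1 + c X}` attached to square-zero elements `X` of an algebra. -/

namespace Cfsg.Agent.RootSub

open Cfsg Cfsg.Agent.QP Relation Subgroup
open scoped MatrixGroups commutatorElement

theorem psl2_subgroupOf {Γ K : Type*} [Group Γ] [Field K] {A B X : Subgroup Γ}
    (h : IsPSL2PairOver K A B) (hA : A ≤ X) (hB : B ≤ X) :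
    IsPSL2PairOver K (A.subgroupOf X) (B.subgroupOf X) := by
  obtain ⟨φ, h1, h2, h3, h4⟩ := h
  have hm : ∀ g, φ g ∈ X := fun g => (h1.le.trans (sup_le hA hB)) ⟨g, rfl⟩
  have hc : X.subtype.comp (φ.codRestrict X hm) = φ := rfl
  refine ⟨φ.codRestrict X hm, ?_, ?_, ?_, ?_⟩
  · apply map_injective X.subtype_injective
    rw [MonoidHom.map_range, hc, h1, Subgroup.map_sup, map_subgroupOf_eq_of_le hA,
      map_subgroupOf_eq_of_le hB]
  · rwa [MonoidHom.ker_codRestrict]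
  · apply map_injective X.subtype_injective
    rw [Subgroup.map_map, hc, h3, map_subgroupOf_eq_of_le hA]
  · apply map_injective X.subtype_injective
    rw [Subgroup.map_map, hc, h4, map_subgroupOf_eq_of_le hB]

theorem freach_subgroupOf {Γ : Type*} [Group Γ] {S : Set (Subgroup Γ)} {X A B : Subgroup Γ}
    (le : ∀ A ∈ S, A ≤ X) (h : ReflTransGen (FAdj S) A B) :
    ReflTransGen (FAdj ((fun A => A.subgroupOf X) '' S)) (A.subgroupOf X) (B.subgroupOf X) := by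
  induction h with
  | refl => exact .refl
  | tail _ h ih =>
    exact ih.tail ⟨⟨_, h.1, rfl⟩, ⟨_, h.2.1, rfl⟩, rankOne_subgroupOf h.2.2 (le _ h.1) (le _ h.2.1)⟩

variable {K F R Γ : Type*} [Field K] [Field F] [Ring R] [Algebra F R] [Group Γ]

/-- the group of all `1 + c X` -/
def LRoot (f : K →+* F) (ι : Γ →* R) (X : R) : Subgroup Γ :=
  Subgroup.closure {g | ∃ c : K, ι g = 1 + f c • X}

/-- the `SL₂` relation -/
def LOpp (f : K →+* F) (X Y : R) : Prop :=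
  ∃ l : K, l ≠ 0 ∧ X * Y * X = f l • X ∧ Y * X * Y = f l • Y

theorem LOpp.symm {f : K →+* F} {X Y : R} (h : LOpp f X Y) : LOpp f Y X := by
  obtain ⟨l, h0, h1, h2⟩ := h
  exact ⟨l, h0, h2, h1⟩

/-- a linear family of root elements -/
structure LinFam (f : K →+* F) (ι : Γ →* R) (𝒳 : Set R) : Prop where
  inj : Function.Injective ι
  sq : ∀ X ∈ 𝒳, X * X = 0
  ne : ∀ X ∈ 𝒳, X ≠ 0
  ex : ∀ X ∈ 𝒳, ∀ c : K, ∃ g, ι g = 1 + f c • X
  conj : ∀ X ∈ 𝒳, ∀ g, ι g * X * ι g⁻¹ ∈ 𝒳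
  pair : ∀ X ∈ 𝒳, ∀ Y ∈ 𝒳, X * Y = Y * X ∨ LOpp f X Y ∨
    (X * Y * X = 0 ∧ Y * X * Y = 0 ∧ X * Y - Y * X ∈ 𝒳)

variable {f : K →+* F} {ι : Γ →* R} {𝒳 : Set R} {X Y : R}

theorem one_add_mul (hX : X * X = 0) (a b : F) :
    (1 + a • X) * (1 + b • X) = 1 + (a + b) • X := by
  simp only [mul_add, add_mul, one_mul, mul_one, smul_mul_assoc, mul_smul_comm, hX, smul_zero,
    add_smul]
  abel

theorem ι_inv (hX : X * X = 0) {g : Γ} {a : F} (h : ι g = 1 + a • X) : ι g⁻¹ = 1 + (-a) • X := by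
  have h1 : ι g * (1 + (-a) • X) = 1 := by rw [h, one_add_mul hX]; simp
  calc ι g⁻¹ = ι g⁻¹ * (ι g * (1 + (-a) • X)) := by rw [h1, mul_one]
    _ = _ := by rw [← mul_assoc, ← map_mul, inv_mul_cancel, map_one, one_mul]

theorem mem_LRoot (hX : X * X = 0) {g : Γ} : g ∈ LRoot f ι X ↔ ∃ c : K, ι g = 1 + f c • X := by
  refine ⟨fun h => ?_, fun h => subset_closure h⟩
  induction h using closure_induction with
  | mem x hx => exact hx
  | one => exact ⟨0, by simp⟩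
  | mul x y _ _ hx hy =>
    obtain ⟨a, ha⟩ := hx
    obtain ⟨b, hb⟩ := hy
    exact ⟨a + b, by rw [map_mul, ha, hb, one_add_mul hX, map_add]⟩
  | inv x _ hx =>
    obtain ⟨a, ha⟩ := hx
    exact ⟨-a, by rw [ι_inv hX ha, map_neg]⟩

theorem LRoot_smul (hX : X * X = 0) {l : K} (hl : l ≠ 0) : LRoot f ι (f l • X) = LRoot f ι X := by
  have h2 : (f l • X) * (f l • X) = 0 := by simp [hX]
  ext g
  rw [mem_LRoot hX, mem_LRoot h2]
  constructor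
  · rintro ⟨c, hc⟩
    exact ⟨c * l, by rw [hc, smul_smul, map_mul]⟩
  · rintro ⟨c, hc⟩
    exact ⟨c * l⁻¹, by rw [hc, smul_smul, ← map_mul, inv_mul_cancel_right₀ hl]⟩

theorem conjBy_LRoot (hX : X * X = 0) (g : Γ) :
    conjBy (LRoot f ι X) g = LRoot f ι (ι g * X * ι g⁻¹) := by
  have e1 : ι g⁻¹ * ι g = 1 := by rw [← map_mul, inv_mul_cancel, map_one]
  have e2 : ι g * ι g⁻¹ = 1 := by rw [← map_mul, mul_inv_cancel, map_one]
  have h2 : (ι g * X * ι g⁻¹) * (ι g * X * ι g⁻¹) = 0 := by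
    calc _ = ι g * X * (ι g⁻¹ * ι g) * X * ι g⁻¹ := by simp only [mul_assoc]
      _ = 0 := by rw [e1, mul_one, mul_assoc (ι g), hX]; simp
  ext x
  rw [mem_conjBy, mem_LRoot hX, mem_LRoot h2]
  refine exists_congr fun c => ⟨fun h => ?_, fun h => ?_⟩
  · calc ι x = ι g * ι (g⁻¹ * x * g) * ι g⁻¹ := by rw [← map_mul, ← map_mul]; congr 1; group
      _ = _ := by rw [h, mul_add, add_mul, mul_one, e2, mul_smul_comm, smul_mul_assoc]
  · rw [map_mul, map_mul, h, mul_add, add_mul, mul_one, e1, mul_smul_comm, smul_mul_assoc]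
    congr 2
    calc _ = (ι g⁻¹ * ι g) * X * (ι g⁻¹ * ι g) := by simp only [mul_assoc]
      _ = X := by rw [e1, one_mul, mul_one]

namespace LinFam

theorem coef_inj (h : LinFam f ι 𝒳) (hX : X ∈ 𝒳) {a b : F} (e : 1 + a • X = 1 + b • X) :
    a = b := by
  have : (a - b) • X = 0 := by rw [sub_smul, add_left_cancel e, sub_self]
  rcases smul_eq_zero.mp this with h1 | h1
  · exact sub_eq_zero.mp h1
  · exact absurd h1 (h.ne X hX)

theorem coef_ne (h : LinFam f ι 𝒳) {g : Γ} {c : K} (e : ι g = 1 + f c • X) (hg : g ≠ 1) :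
    c ≠ 0 := by
  rintro rfl
  exact hg (h.inj (by simpa using e))

theorem comm (h : LinFam f ι 𝒳) (hX : X ∈ 𝒳) (hY : Y ∈ 𝒳) (e : X * Y = Y * X) :
    ⁅LRoot f ι X, LRoot f ι Y⁆ = ⊥ := by
  rw [commutator_eq_bot_iff']
  intro a ha b hb
  obtain ⟨c, hc⟩ := (mem_LRoot (h.sq X hX)).mp ha
  obtain ⟨d, hd⟩ := (mem_LRoot (h.sq Y hY)).mp hb
  apply h.inj
  rw [map_mul, map_mul, hc, hd]
  simp only [mul_add, add_mul, one_mul, mul_one, smul_mul_assoc, mul_smul_comm, e]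
  module

theorem comm_iff (h : LinFam f ι 𝒳) (hX : X ∈ 𝒳) (hY : Y ∈ 𝒳) :
    ⁅LRoot f ι X, LRoot f ι Y⁆ = ⊥ ↔ X * Y = Y * X := by
  refine ⟨fun e => ?_, h.comm hX hY⟩
  obtain ⟨a, ha⟩ := h.ex X hX 1
  obtain ⟨b, hb⟩ := h.ex Y hY 1
  have := congrArg ι (comm_of_commutator_eq_bot e (subset_closure ⟨1, ha⟩) (subset_closure ⟨1, hb⟩))
  rw [map_mul, map_mul, ha, hb] at this
  simp only [map_one, one_smul, mul_add, add_mul, one_mul, mul_one] at this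
  linear_combination (norm := abel) this

theorem ne_bot (h : LinFam f ι 𝒳) (hX : X ∈ 𝒳) : LRoot f ι X ≠ ⊥ := by
  obtain ⟨a, ha⟩ := h.ex X hX 1
  intro e
  have : a ∈ LRoot f ι X := subset_closure ⟨1, ha⟩
  rw [e, mem_bot] at this
  rw [this, map_one, map_one, one_smul, left_eq_add] at ha
  exact h.ne X hX ha

theorem exists_hom (h : LinFam f ι 𝒳) (hX : X ∈ 𝒳) (hY : Y ∈ 𝒳) (ho : LOpp f X Y) :
    ∃ φ : SL(2, K) →* Γ, Function.Injective φ ∧ (upperUnipotentSL2 K).map φ = LRoot f ι X ∧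
      (lowerUnipotentSL2 K).map φ = LRoot f ι Y := by
  obtain ⟨l, hl, h1, h2⟩ := ho
  have hfl : f l ≠ 0 := (map_ne_zero f).mpr hl
  set v := f l⁻¹ • Y with hv
  have T : Tri X v := ⟨h.sq X hX, by simp [hv, h.sq Y hY],
    by simp [hv, h1, smul_smul, hfl], by
      simp only [hv, smul_mul_assoc, mul_smul_comm, h2, smul_smul, map_inv₀]
      congr 1; field_simp⟩
  let ψ : SL(2, K) →* R :=
    { toFun := fun A => 1 - (X * v + v * X) + (f (A 0 0) • (X * v) + f (A 0 1) • X +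
        f (A 1 0) • v + f (A 1 1) • (v * X))
      map_one' := by
        simp only [sl2_one_00, sl2_one_01, sl2_one_10, sl2_one_11, map_one, map_zero, one_smul,
          zero_smul]; abel
      map_mul' := fun A B => by
        simp only [sl2_mul_apply, map_add, map_mul, T.nf, smul_mul_assoc, mul_smul_comm,
          smul_zero, smul_add, smul_sub]
        module }
  have ex : ∀ r, ψ (xx r) = 1 + f r • X := fun r => by
    change 1 - (X * v + v * X) + (f 1 • (X * v) + f r • X + f 0 • v + f 1 • (v * X)) = _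
    simp only [map_one, map_zero, one_smul, zero_smul]; abel
  have ey : ∀ r, ψ (yy r) = 1 + f (r * l⁻¹) • Y := fun r => by
    change 1 - (X * v + v * X) + (f 1 • (X * v) + f 0 • X + f r • v + f 1 • (v * X)) = _
    simp only [map_one, map_zero, one_smul, zero_smul, map_mul, mul_smul, ← hv]; abel
  have hin : Function.Injective ψ := by
    rw [injective_iff_map_eq_one]
    intro A hA
    have hA' : 1 - (X * v + v * X) + (f (A 0 0) • (X * v) + f (A 0 1) • X +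
        f (A 1 0) • v + f (A 1 1) • (v * X)) = 1 := hA
    have k : ∀ a b : F, a • X = b • X → a = b := fun a b e => h.coef_inj hX (by rw [e])
    have e00 := congrArg (fun z => X * v * z * X) hA'
    have e01 := congrArg (fun z => X * v * z * v * X) hA'
    have e10 := congrArg (fun z => X * z * X) hA'
    have e11 := congrArg (fun z => X * z * v * X) hA'
    simp only [T.nf, smul_mul_assoc, mul_smul_comm, smul_zero, add_zero, zero_add, sub_self,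
      sub_zero] at e00 e01 e10 e11
    refine sl2_ext (f.injective ?_) (f.injective ?_) (f.injective ?_) (f.injective ?_)
    · rw [sl2_one_00, map_one]; exact k _ _ (by rw [e00, one_smul])
    · rw [sl2_one_01, map_zero]; exact k _ _ (by rw [e01, zero_smul])
    · rw [sl2_one_10, map_zero]; exact k _ _ (by rw [e10, zero_smul])
    · rw [sl2_one_11, map_one]; exact k _ _ (by rw [e11, one_smul])
  have hr : ∀ A, ∃ g, ι g = ψ A := by
    let H : Subgroup SL(2, K) :=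
      { carrier := {A | ∃ g, ι g = ψ A}
        mul_mem' := by
          rintro A B ⟨a, ha⟩ ⟨b, hb⟩
          exact ⟨a * b, by rw [map_mul, map_mul, ha, hb]⟩
        one_mem' := ⟨1, by rw [map_one, map_one]⟩
        inv_mem' := by
          rintro A ⟨a, ha⟩
          refine ⟨a⁻¹, ?_⟩
          calc ι a⁻¹ = ι a⁻¹ * (ψ A * ψ A⁻¹) := by
                rw [← map_mul, mul_inv_cancel, map_one, mul_one]
            _ = _ := by rw [← ha, ← mul_assoc, ← map_mul, inv_mul_cancel, map_one, one_mul] }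
    have : H = ⊤ := sl2_eq_top (fun r => by
        obtain ⟨g, hg⟩ := h.ex X hX r
        exact ⟨g, by rw [hg, ex]⟩)
      (fun r => by
        obtain ⟨g, hg⟩ := h.ex Y hY (r * l⁻¹)
        exact ⟨g, by rw [hg, ey]⟩)
    intro A
    have hA : A ∈ H := this ▸ mem_top A
    exact hA
  choose g hg using hr
  let φ : SL(2, K) →* Γ := MonoidHom.mk' g fun A B => h.inj (by rw [map_mul, hg, hg, hg, map_mul])
  have hφ : ∀ A, ι (φ A) = ψ A := hg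
  refine ⟨φ, fun A B e => hin (by rw [← hφ, ← hφ, e]), ?_, ?_⟩
  · ext x
    rw [mem_LRoot (h.sq X hX), Subgroup.mem_map]
    constructor
    · rintro ⟨A, hA, rfl⟩
      obtain ⟨r, rfl⟩ := mem_upper.mp hA
      exact ⟨r, by rw [hφ, ex]⟩
    · rintro ⟨c, hc⟩
      exact ⟨xx c, xx_mem_upper c, h.inj (by rw [hφ, ex, hc])⟩
  · ext x
    rw [mem_LRoot (h.sq Y hY), Subgroup.mem_map]
    constructor
    · rintro ⟨A, hA, rfl⟩
      obtain ⟨r, rfl⟩ := mem_lower.mp hA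
      exact ⟨_, by rw [hφ, ey]⟩
    · rintro ⟨c, hc⟩
      exact ⟨yy (c * l), yy_mem_lower _, h.inj (by rw [hφ, ey, hc, mul_inv_cancel_right₀ hl])⟩

theorem psl2 (h : LinFam f ι 𝒳) (hX : X ∈ 𝒳) (hY : Y ∈ 𝒳) (ho : LOpp f X Y) :
    IsPSL2PairOver K (LRoot f ι X) (LRoot f ι Y) := by
  obtain ⟨φ, h1, h2, h3⟩ := h.exists_hom hX hY ho
  refine ⟨φ, ?_, ?_, h2, h3⟩
  · rw [← h2, ← h3, ← Subgroup.map_sup, upper_sup_lower, MonoidHom.range_eq_map]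
  · rw [(MonoidHom.ker_eq_bot_iff φ).mpr h1]; exact bot_le

theorem rankOne (h : LinFam f ι 𝒳) (hX : X ∈ 𝒳) (hY : Y ∈ 𝒳) (ho : LOpp f X Y) :
    IsRankOnePair (LRoot f ι X) (LRoot f ι Y) := by
  obtain ⟨φ, h1, h2, h3⟩ := h.exists_hom hX hY ho
  rw [← h2, ← h3]
  exact rankOne_map_of_injective upper_lower_rankOne φ h1

theorem ι_comm (hX : X * X = 0) (hY : Y * Y = 0) (h1 : X * Y * X = 0) (h2 : Y * X * Y = 0)
    {a b : Γ} {c d : F} (ha : ι a = 1 + c • X) (hb : ι b = 1 + d • Y) :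
    ι (a * b * a⁻¹ * b⁻¹) = 1 + (c * d) • (X * Y - Y * X) := by
  have e1 : ∀ z, X * (X * z) = 0 := fun z => by rw [← mul_assoc, hX, zero_mul]
  have e2 : ∀ z, Y * (Y * z) = 0 := fun z => by rw [← mul_assoc, hY, zero_mul]
  have e3 : ∀ z, X * (Y * (X * z)) = 0 := fun z => by rw [← mul_assoc, ← mul_assoc, h1, zero_mul]
  rw [mul_assoc] at h1 h2
  rw [map_mul, map_mul, map_mul, ι_inv hX ha, ι_inv hY hb, ha, hb]
  simp only [ring_nf' R, smul_mul_assoc, mul_smul_comm, hX, hY, h1, h2, e1, e2, e3, smul_zero]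
  module

theorem commCase (h : LinFam f ι 𝒳) (hX : X ∈ 𝒳) (hY : Y ∈ 𝒳) (h1 : X * Y * X = 0)
    (h2 : Y * X * Y = 0) (hZ : X * Y - Y * X ∈ 𝒳) :
    ⁅LRoot f ι X, LRoot f ι Y⁆ = LRoot f ι (X * Y - Y * X) ∧
      RootCommutatorCase (LRoot f ι '' 𝒳) (LRoot f ι X) (LRoot f ι Y) := by
  have sX := h.sq X hX
  have sY := h.sq Y hY
  have sZ := h.sq _ hZ
  have le : ⁅LRoot f ι X, LRoot f ι Y⁆ ≤ LRoot f ι (X * Y - Y * X) := by
    rw [Subgroup.commutator_le]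
    intro a ha b hb
    obtain ⟨c, hc⟩ := (mem_LRoot sX).mp ha
    obtain ⟨d, hd⟩ := (mem_LRoot sY).mp hb
    exact (mem_LRoot sZ).mpr ⟨c * d, by rw [map_mul f]; exact ι_comm sX sY h1 h2 hc hd⟩
  have k1 : ∀ a ∈ LRoot f ι X, a ≠ 1 → ∀ z ∈ LRoot f ι (X * Y - Y * X),
      ∃ b ∈ LRoot f ι Y, a * b * a⁻¹ * b⁻¹ = z := by
    intro a ha ha1 z hz
    obtain ⟨c, hc⟩ := (mem_LRoot sX).mp ha
    obtain ⟨e, he⟩ := (mem_LRoot sZ).mp hz
    obtain ⟨b, hb⟩ := h.ex Y hY (c⁻¹ * e)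
    refine ⟨b, (mem_LRoot sY).mpr ⟨_, hb⟩, h.inj ?_⟩
    rw [ι_comm sX sY h1 h2 hc hb, he, ← map_mul, mul_inv_cancel_left₀ (h.coef_ne hc ha1)]
  have k2 : ∀ b ∈ LRoot f ι Y, b ≠ 1 → ∀ z ∈ LRoot f ι (X * Y - Y * X),
      ∃ a ∈ LRoot f ι X, a * b * a⁻¹ * b⁻¹ = z := by
    intro b hb hb1 z hz
    obtain ⟨c, hc⟩ := (mem_LRoot sY).mp hb
    obtain ⟨e, he⟩ := (mem_LRoot sZ).mp hz
    obtain ⟨a, ha⟩ := h.ex X hX (e * c⁻¹)
    refine ⟨a, (mem_LRoot sX).mpr ⟨_, ha⟩, h.inj ?_⟩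
    rw [ι_comm sX sY h1 h2 ha hc, he, ← map_mul, inv_mul_cancel_right₀ (h.coef_ne hc hb1)]
  have eq : ⁅LRoot f ι X, LRoot f ι Y⁆ = LRoot f ι (X * Y - Y * X) := by
    refine le_antisymm le fun z hz => ?_
    obtain ⟨a, ha, ha1⟩ := exists_mem_ne_one (h.ne_bot hX)
    obtain ⟨b, hb, rfl⟩ := k1 a ha ha1 z hz
    exact commutator_mem_commutator ha hb
  refine ⟨eq, ⟨_, hZ, eq.symm⟩, ?_, ?_, ?_⟩
  · rw [eq]
    have : ⁅LRoot f ι (X * Y - Y * X), LRoot f ι X ⊔ LRoot f ι Y⁆ = ⊥ :=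
      commutator_sup_right_eq_bot (h.comm hZ hX (by
        rw [sub_mul, mul_sub, h1, mul_assoc, sX, ← mul_assoc, sX, ← mul_assoc, h1]; simp))
        (h.comm hZ hY (by
        rw [sub_mul, mul_sub, h2, mul_assoc, sY, ← mul_assoc, ← mul_assoc, h2, sY]
        simp))
    exact fun c hc x hx => comm_of_commutator_eq_bot this hc hx
  · intro a ha ha1
    refine le_antisymm ((closure_le _).mpr ?_) fun z hz => ?_
    · rintro _ ⟨b, hb, rfl⟩
      exact commutator_mem_commutator ha hb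
    · obtain ⟨b, hb, e⟩ := k1 a ha ha1 z (le hz)
      exact subset_closure ⟨b, hb, e⟩
  · intro b hb hb1
    refine le_antisymm ((closure_le _).mpr ?_) fun z hz => ?_
    · rintro _ ⟨a, ha, rfl⟩
      exact commutator_mem_commutator ha hb
    · obtain ⟨a, ha, e⟩ := k2 b hb hb1 z (le hz)
      exact subset_closure ⟨a, ha, e⟩

theorem fam_pair (h : LinFam f ι 𝒳) : ∀ A ∈ LRoot f ι '' 𝒳, ∀ B ∈ LRoot f ι '' 𝒳,
    ⁅A, B⁆ = ⊥ ∨ IsRankOnePair A B ∨ RootCommutatorCase (LRoot f ι '' 𝒳) A B := by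
  rintro _ ⟨X, hX, rfl⟩ _ ⟨Y, hY, rfl⟩
  rcases h.pair X hX Y hY with e | e | ⟨e1, e2, e3⟩
  · exact Or.inl (h.comm hX hY e)
  · exact Or.inr (Or.inl (h.rankOne hX hY e))
  · exact Or.inr (Or.inr (h.commCase hX hY e1 e2 e3).2)

theorem fam_comm (h : LinFam f ι 𝒳) : ∀ A ∈ LRoot f ι '' 𝒳, ⁅A, A⁆ = ⊥ := by
  rintro _ ⟨X, hX, rfl⟩
  exact h.comm hX hX rfl

theorem fam_ne_bot (h : LinFam f ι 𝒳) : ∀ A ∈ LRoot f ι '' 𝒳, A ≠ ⊥ := by
  rintro _ ⟨X, hX, rfl⟩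
  exact h.ne_bot hX

theorem fam_conj (h : LinFam f ι 𝒳) : ∀ A ∈ LRoot f ι '' 𝒳, ∀ g, conjBy A g ∈ LRoot f ι '' 𝒳 := by
  rintro _ ⟨X, hX, rfl⟩ g
  exact ⟨_, h.conj X hX g, (conjBy_LRoot (h.sq X hX) g).symm⟩

theorem fam_psl2 (h : LinFam f ι 𝒳) : ∀ A ∈ LRoot f ι '' 𝒳, ∀ B ∈ LRoot f ι '' 𝒳,
    IsRankOnePair A B → IsPSL2PairOver K A B := by
  rintro _ ⟨X, hX, rfl⟩ _ ⟨Y, hY, rfl⟩ hr
  rcases h.pair X hX Y hY with e | e | ⟨e1, e2, e3⟩
  · exact absurd (h.comm hX hY e) (rankOne_commutator_ne_bot hr)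
  · exact h.psl2 hX hY e
  · exact absurd hr (commCase_not_rankOne (h.commCase hX hY e1 e2 e3).2 (h.comm hX hX rfl))

theorem kroot_top (h : LinFam f ι 𝒳) (hg : (⨆ A ∈ LRoot f ι '' 𝒳, A) = ⊤) :
    IsKRootSubgroupSet K (LRoot f ι '' 𝒳) :=
  ⟨⟨fun A hA => Subgroup.commutator_self_eq_bot_iff.mp (h.fam_comm A hA), h.fam_ne_bot, hg,
    h.fam_conj, h.fam_pair⟩, h.fam_psl2⟩

theorem kroot (h : LinFam f ι 𝒳) : IsKRootSubgroupSet K
    ((fun A => A.subgroupOf (⨆ B ∈ LRoot f ι '' 𝒳, B)) '' (LRoot f ι '' 𝒳)) := by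
  refine ⟨root_subgroupOf rfl h.fam_comm h.fam_ne_bot (fun A hA g _ => h.fam_conj A hA g)
    h.fam_pair, ?_⟩
  rintro _ ⟨A, hA, rfl⟩ _ ⟨B, hB, rfl⟩ hr
  exact psl2_subgroupOf (h.fam_psl2 A hA B hB ((rankOne_subgroupOf_iff (le_bisup _ A hA)
    (le_bisup _ B hB)).mp hr)) (le_bisup _ A hA) (le_bisup _ B hB)

theorem amb (h : LinFam f ι 𝒳) (hp : ∀ X ∈ 𝒳, ∃ Y ∈ 𝒳, LOpp f X Y) : Amb (LRoot f ι '' 𝒳) := by
  refine ⟨h.fam_comm, h.fam_ne_bot, fun A hA g _ => h.fam_conj A hA g, h.fam_pair, ?_⟩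
  rintro _ ⟨X, hX, rfl⟩
  obtain ⟨Y, hY, e⟩ := hp X hX
  exact ⟨_, ⟨Y, hY, rfl⟩, h.rankOne hX hY e⟩

theorem adj (h : LinFam f ι 𝒳) (hX : X ∈ 𝒳) (hY : Y ∈ 𝒳) (ho : LOpp f X Y) :
    FAdj (LRoot f ι '' 𝒳) (LRoot f ι X) (LRoot f ι Y) :=
  ⟨⟨X, hX, rfl⟩, ⟨Y, hY, rfl⟩, h.rankOne hX hY ho⟩

theorem reach_of_ne (h : LinFam f ι 𝒳) (hp : ∀ X ∈ 𝒳, ∃ Y ∈ 𝒳, LOpp f X Y) (hX : X ∈ 𝒳)
    (hY : Y ∈ 𝒳) (hne : X * Y ≠ Y * X) :
    ReflTransGen (FAdj (LRoot f ι '' 𝒳)) (LRoot f ι X) (LRoot f ι Y) := by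
  by_contra hn
  exact hne ((h.comm_iff hX hY).mp ((h.amb hp).comm_of_not_reach ⟨X, hX, rfl⟩ ⟨Y, hY, rfl⟩ hn))

theorem connected_of_opp (h : LinFam f ι 𝒳)
    (hp : ∀ X ∈ 𝒳, ∀ Y ∈ 𝒳, ∃ Z ∈ 𝒳, LOpp f X Z ∧ LOpp f Y Z) :
    IsConnectedFamily (FAdj (LRoot f ι '' 𝒳)) (LRoot f ι '' 𝒳) := by
  rintro _ ⟨X, hX, rfl⟩ _ ⟨Y, hY, rfl⟩
  obtain ⟨Z, hZ, h1, h2⟩ := hp X hX Y hY
  exact (ReflTransGen.single (h.adj hX hZ h1)).tail (h.adj hZ hY h2.symm)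

theorem degenerate {S : Set (Subgroup Γ)} (hS : IsRootSubgroupSet S)
    (hp : ∀ A ∈ S, ∀ B ∈ S, ⁅A, B⁆ = ⊥ ∨ IsRankOnePair A B) : IsDegenerateRootSet S := by
  intro A hA B hB hc
  rcases hp A hA B hB with e | e
  · exact root_commCase_ne_bot hS hc e
  · exact commCase_not_rankOne hc (root_self_comm hS hA) e

theorem fam_pair_deg (h : LinFam f ι 𝒳) (hd : ∀ X ∈ 𝒳, ∀ Y ∈ 𝒳, X * Y = Y * X ∨ LOpp f X Y) :
    ∀ A ∈ LRoot f ι '' 𝒳, ∀ B ∈ LRoot f ι '' 𝒳, ⁅A, B⁆ = ⊥ ∨ IsRankOnePair A B := by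
  rintro _ ⟨X, hX, rfl⟩ _ ⟨Y, hY, rfl⟩
  rcases hd X hX Y hY with e | e
  · exact Or.inl (h.comm hX hY e)
  · exact Or.inr (h.rankOne hX hY e)

theorem degenerate_sub (h : LinFam f ι 𝒳)
    (hd : ∀ X ∈ 𝒳, ∀ Y ∈ 𝒳, X * Y = Y * X ∨ LOpp f X Y) : IsDegenerateRootSet
    ((fun A => A.subgroupOf (⨆ B ∈ LRoot f ι '' 𝒳, B)) '' (LRoot f ι '' 𝒳)) := by
  refine degenerate h.kroot.1 ?_
  rintro _ ⟨A, hA, rfl⟩ _ ⟨B, hB, rfl⟩
  rcases h.fam_pair_deg hd A hA B hB with e | e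
  · left; rw [commutator_subgroupOf (le_bisup _ A hA) (le_bisup _ B hB), e, bot_subgroupOf]
  · exact Or.inr (rankOne_subgroupOf e (le_bisup _ A hA) (le_bisup _ B hB))

end LinFam

theorem connected_subgroupOf {S : Set (Subgroup Γ)} (h : IsConnectedFamily (FAdj S) S) :
    IsConnectedFamily (FAdj ((fun A => A.subgroupOf (⨆ B ∈ S, B)) '' S))
      ((fun A => A.subgroupOf (⨆ B ∈ S, B)) '' S) := by
  rintro _ ⟨A, hA, rfl⟩ _ ⟨B, hB, rfl⟩
  exact freach_subgroupOf (le_bisup S) (h A hA B hB)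

end Cfsg.Agent.RootSub
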