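import Mathlib
import Cfsg.Agent.RootSub.Lin
import Cfsg.Agent.Class.Sp.Gen
import Cfsg.Agent.Class.U.Simple
import Cfsg.Agent.Class.U.SU2
import Cfsg.Agent.Class.LinearBasic

set_option autoImplicit false
set_option linter.unusedSimpArgs false
set_option linter.unusedSectionVars false

/-! Transvection groups in linear, symplectic and unitary groups as linear root families. -/

namespace Cfsg.Agent.RootSub

open Cfsg Cfsg.Agent.QP Relation Matrix

section rk
variable {K F V : Type*} [Field K] [Field F] [AddCommGroup V] [Module F V]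

/-- the rank one operator `v ↦ φ v • p` -/
def rk (p : V) (φ : V →ₗ[F] F) : Module.End F V := φ.smulRight p

@[simp] theorem rk_apply (p : V) (φ : V →ₗ[F] F) (v : V) : rk p φ v = φ v • p := rfl

theorem rk_mul (p r : V) (φ ψ : V →ₗ[F] F) : rk p φ * rk r ψ = φ r • rk p ψ := by
  ext v; simp [smul_smul, mul_comm]

theorem rk_smul (c : F) (p : V) (φ : V →ₗ[F] F) : rk (c • p) φ = c • rk p φ := by
  ext v; simp [smul_smul, mul_comm]

theorem rk_ne_zero {p : V} {φ : V →ₗ[F] F} (hp : p ≠ 0) (hφ : φ ≠ 0) : rk p φ ≠ 0 := by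
  intro e
  apply hφ
  ext v
  have := congrArg (fun z : Module.End F V => z v) e
  simpa [hp] using this

theorem rk_sq {p : V} {φ : V →ₗ[F] F} (h : φ p = 0) : rk p φ * rk p φ = 0 := by
  rw [rk_mul, h, zero_smul]

theorem rk_mul_mul (p r : V) (φ ψ : V →ₗ[F] F) :
    rk p φ * rk r ψ * rk p φ = (φ r * ψ p) • rk p φ := by
  rw [rk_mul, smul_mul_assoc, rk_mul, smul_smul]

theorem rk_comm {p r : V} {φ ψ : V →ₗ[F] F} (h1 : φ r = 0) (h2 : ψ p = 0) :
    rk p φ * rk r ψ = rk r ψ * rk p φ := by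
  rw [rk_mul, rk_mul, h1, h2, zero_smul, zero_smul]

theorem rk_opp {f : K →+* F} {p r : V} {φ ψ : V →ₗ[F] F} {l : K} (h : φ r * ψ p = f l)
    (h1 : φ r ≠ 0) (h2 : ψ p ≠ 0) : LOpp f (rk p φ) (rk r ψ) :=
  ⟨l, by rintro rfl; exact mul_ne_zero h1 h2 (by rw [h, map_zero]), by rw [rk_mul_mul, h],
    by rw [rk_mul_mul, mul_comm, h]⟩

theorem rk_conj (a b : Module.End F V) (p : V) (φ : V →ₗ[F] F) :
    a * rk p φ * b = rk (a p) (φ ∘ₗ b) := by
  ext v; simp

theorem eq_one_add_rk {a : Module.End F V} {c : F} {p : V} {φ : V →ₗ[F] F} :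
    a = 1 + c • rk p φ ↔ ∀ v, a v = v + (c * φ v) • p := by
  rw [LinearMap.ext_iff]
  simp [smul_smul]

theorem exists_ne_ne {φ ψ : V →ₗ[F] F} (h1 : φ ≠ 0) (h2 : ψ ≠ 0) : ∃ v, φ v ≠ 0 ∧ ψ v ≠ 0 := by
  obtain ⟨a, ha⟩ := DFunLike.ne_iff.mp h1
  obtain ⟨b, hb⟩ := DFunLike.ne_iff.mp h2
  simp only [LinearMap.zero_apply] at ha hb
  by_cases e1 : ψ a = 0
  · by_cases e2 : φ b = 0
    · exact ⟨a + b, by simpa [e2] using ha, by simpa [e1] using hb⟩
    · exact ⟨b, e2, hb⟩
  · exact ⟨a, ha, e1⟩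

theorem exists_dual_zero_one {p r : V} (h : ∀ c : F, p ≠ c • r) :
    ∃ ψ : V →ₗ[F] F, ψ p = 1 ∧ ψ r = 0 := by
  have hp : p ∉ Submodule.span F {r} := fun e => by
    obtain ⟨c, hc⟩ := Submodule.mem_span_singleton.mp e
    exact h c hc.symm
  obtain ⟨ψ, h1, h2⟩ := Submodule.exists_dual_map_eq_bot_of_notMem hp inferInstance
  refine ⟨(ψ p)⁻¹ • ψ, by simp [h1], ?_⟩
  have : ψ r ∈ (Submodule.span F {r}).map ψ := ⟨r, Submodule.mem_span_singleton_self r, rfl⟩
  rw [h2, Submodule.mem_bot] at this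
  simp [this]

end rk

section mat
variable {n F : Type*} [Fintype n] [DecidableEq n] [Field F]

/-- matrices as endomorphisms -/
def mEnd : Matrix n n F →* Module.End F (n → F) where
  toFun M := M.mulVecLin
  map_one' := Matrix.mulVecLin_one
  map_mul' M N := Matrix.mulVecLin_mul M N

@[simp] theorem mEnd_apply (M : Matrix n n F) (v : n → F) : mEnd M v = M *ᵥ v := rfl

theorem mEnd_injective : Function.Injective (mEnd : Matrix n n F →* Module.End F (n → F)) :=
  fun _ _ h => Matrix.ext_iff_mulVec.mpr fun v => congrArg (fun z : Module.End F (n → F) => z v) h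

/-- `SL` acting on column vectors -/
def slEnd : SpecialLinearGroup n F →* Module.End F (n → F) :=
  mEnd.comp SpecialLinearGroup.coeMonoidHom

theorem slEnd_apply (g : SpecialLinearGroup n F) (v : n → F) :
    slEnd g v = (g : Matrix n n F) *ᵥ v := rfl

theorem slEnd_injective :
    Function.Injective (slEnd : SpecialLinearGroup n F →* Module.End F (n → F)) :=
  mEnd_injective.comp Subtype.val_injective

/-- linear transvection directions -/
def slX (n F : Type*) [Field F] : Set (Module.End F (n → F)) :=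
  {X | ∃ p φ, p ≠ 0 ∧ φ ≠ 0 ∧ φ p = 0 ∧ X = rk p φ}

theorem map_ne_zero_of_hom {Γ V : Type*} [Group Γ] [AddCommGroup V] [Module F V]
    (ι : Γ →* Module.End F V) (g : Γ) {p : V} (hp : p ≠ 0) : ι g p ≠ 0 := fun e => hp (by
  have : (ι g⁻¹ * ι g) p = 0 := by rw [Module.End.mul_apply, e, map_zero]
  rwa [← map_mul, inv_mul_cancel, map_one] at this)

theorem inv_apply_hom {Γ V : Type*} [Group Γ] [AddCommGroup V] [Module F V]
    (ι : Γ →* Module.End F V) (g : Γ) (p : V) : ι g⁻¹ (ι g p) = p := by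
  rw [← Module.End.mul_apply, ← map_mul, inv_mul_cancel, map_one]; rfl

theorem slFam : LinFam (RingHom.id F) (slEnd : SpecialLinearGroup n F →* _) (slX n F) where
  inj := slEnd_injective
  sq := by rintro _ ⟨p, φ, -, -, h, rfl⟩; exact rk_sq h
  ne := by rintro _ ⟨p, φ, h1, h2, -, rfl⟩; exact rk_ne_zero h1 h2
  ex := by
    rintro _ ⟨p, φ, -, -, h, rfl⟩ c
    let a : n → F := fun i => c * φ (Pi.single i 1)
    have ha : ∀ v, a ⬝ᵥ v = c * φ v := fun v => by
      conv_rhs => rw [pi_eq_sum_univ' v, map_sum, Finset.mul_sum]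
      simp only [dotProduct, a, map_smul, smul_eq_mul]
      exact Finset.sum_congr rfl fun i _ => by ring
    refine ⟨⟨1 + vecMulVec p a, ?_⟩, eq_one_add_rk.mpr fun v => ?_⟩
    · rw [vecMulVec_eq Unit, det_one_add_replicateCol_mul_replicateRow, ha, h]; simp
    · change (1 + vecMulVec p a) *ᵥ v = _
      rw [add_mulVec, one_mulVec, vecMulVec_mulVec, ha, op_smul_eq_smul]; rfl
  conj := by
    rintro _ ⟨p, φ, h1, h2, h3, rfl⟩ g
    refine ⟨_, _, map_ne_zero_of_hom slEnd g h1, fun e => h2 ?_, ?_, rk_conj _ _ _ _⟩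
    · refine LinearMap.ext fun v => ?_
      have := congrArg (fun z : (n → F) →ₗ[F] F => z (slEnd g v)) e
      simpa [inv_apply_hom] using this
    · simpa [inv_apply_hom] using h3
  pair := by
    rintro _ ⟨p, φ, h1, h2, h3, rfl⟩ _ ⟨r, ψ, k1, k2, k3, rfl⟩
    by_cases e1 : φ r = 0 <;> by_cases e2 : ψ p = 0
    · exact Or.inl (rk_comm e1 e2)
    · refine Or.inr (Or.inr ⟨by simp [rk_mul_mul, e1], by simp [rk_mul_mul, e1],
        (-ψ p) • r, φ, smul_ne_zero (neg_ne_zero.mpr e2) k1, h2, by simp [e1], ?_⟩)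
      rw [rk_mul, rk_mul, e1, rk_smul, zero_smul, zero_sub]; exact (neg_smul _ _).symm
    · refine Or.inr (Or.inr ⟨by simp [rk_mul_mul, e2], by simp [rk_mul_mul, e2],
        (φ r) • p, ψ, smul_ne_zero e1 h1, k2, by simp [e2], ?_⟩)
      rw [rk_mul, rk_mul, e2, rk_smul]; simp
    · exact Or.inr (Or.inl (rk_opp (l := φ r * ψ p) rfl e1 e2))

theorem slX_partner : ∀ X ∈ slX n F, ∃ Y ∈ slX n F, LOpp (RingHom.id F) X Y := by
  rintro _ ⟨p, φ, h1, h2, h3, rfl⟩
  obtain ⟨r, hr, -⟩ := exists_ne_ne h2 h2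
  obtain ⟨ψ, e1, e2⟩ := exists_dual_zero_one (F := F) (p := p) (r := r) (fun c e => by
    have : c * φ r = 0 := by rw [← h3, e]; simp
    rw [(mul_eq_zero.mp this).resolve_right hr, zero_smul] at e
    exact h1 e)
  refine ⟨_, ⟨r, ψ, by rintro rfl; simp at hr, by rintro rfl; simp at e1, e2, rfl⟩,
    rk_opp (l := φ r * ψ p) rfl hr (by simp [e1])⟩

theorem slX_ne {p r : n → F} {φ ψ : (n → F) →ₗ[F] F} (h1 : p ≠ 0) (h3 : φ p = 0) (k2 : ψ ≠ 0)
    (e : φ r ≠ 0) : rk p φ * rk r ψ ≠ rk r ψ * rk p φ := by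
  intro h
  have := congrArg (fun z => rk p φ * z) h
  simp only [← mul_assoc, rk_sq h3, zero_mul, rk_mul_mul] at this
  have e2 : ψ p = 0 := by
    rcases smul_eq_zero.mp this.symm with h4 | h4
    · exact (mul_eq_zero.mp h4).resolve_left e
    · exact absurd h4 (rk_ne_zero h1 (by rintro rfl; simp at e))
  rw [rk_mul, rk_mul, e2, zero_smul] at h
  exact smul_ne_zero e (rk_ne_zero h1 k2) h

theorem sl_connected : IsConnectedFamily (FAdj (LRoot (RingHom.id F) slEnd '' slX n F))
    (LRoot (RingHom.id F) (slEnd : SpecialLinearGroup n F →* _) '' slX n F) := by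
  rintro _ ⟨_, ⟨p, φ, h1, h2, h3, rfl⟩, rfl⟩ _ ⟨_, ⟨p', φ', k1, k2, k3, rfl⟩, rfl⟩
  obtain ⟨r, hr, hr'⟩ := exists_ne_ne h2 k2
  obtain ⟨ψ, e1, e2⟩ := exists_dual_zero_one (F := F) (p := p) (r := r) (fun c e => by
    have : c * φ r = 0 := by rw [← h3, e]; simp
    rw [(mul_eq_zero.mp this).resolve_right hr, zero_smul] at e
    exact h1 e)
  have hψ : ψ ≠ 0 := by rintro rfl; simp at e1
  have hY : rk r ψ ∈ slX n F := ⟨r, ψ, by rintro rfl; simp at hr, hψ, e2, rfl⟩
  exact (slFam.reach_of_ne slX_partner ⟨p, φ, h1, h2, h3, rfl⟩ hY (slX_ne h1 h3 hψ hr)).trans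
    (slFam.reach_of_ne slX_partner hY ⟨p', φ', k1, k2, k3, rfl⟩ (slX_ne k1 k3 hψ hr').symm)

theorem slEnd_eq_iff {i j : n} {g : SpecialLinearGroup n F} {c : F} :
    slEnd g = 1 + c • rk (Pi.single i 1) (LinearMap.proj j) ↔
      (g : Matrix n n F) = Matrix.transvection i j c := by
  rw [eq_one_add_rk, Matrix.ext_iff_mulVec]
  refine forall_congr' fun v => ?_
  rw [slEnd_apply, Matrix.transvection, add_mulVec, one_mulVec, single_mulVec]
  have : Function.update (0 : n → F) i (c * v j) = (c * v j) • (Pi.single i 1 : n → F) := by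
    ext k; by_cases h : k = i
    · subst h; simp
    · simp [h]
  rw [this]; rfl

theorem elem_mem_slX {i j : n} (h : i ≠ j) :
    rk (Pi.single i (1 : F) : n → F) (LinearMap.proj j) ∈ slX n F :=
  ⟨_, _, by simp, fun e => by
    simpa using congrArg (fun z : (n → F) →ₗ[F] F => z (Pi.single j 1)) e, by simp [h.symm], rfl⟩

theorem sl_generates : (⨆ A ∈ LRoot (RingHom.id F) (slEnd : SpecialLinearGroup n F →* _) '' slX n F, A)
    = ⊤ :=
  Class.SL_eq_top_of_transvection_mem _ fun i j h c =>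
    le_bisup _ _ (Set.mem_image_of_mem _ (elem_mem_slX h)) (by
      refine Subgroup.subset_closure ⟨c, slEnd_eq_iff.mpr ?_⟩
      rfl)

end mat

section sp
open Cfsg.Agent.Class.Sp
variable {F : Type*} [Field F] {m : ℕ}

/-- `Sp` acting on column vectors -/
def spEnd : symplecticGroup (Fin m) F →* Module.End F (Fin m ⊕ Fin m → F) :=
  mEnd.comp (Submonoid.subtype _)

theorem spEnd_apply (g : symplecticGroup (Fin m) F) (v : Fin m ⊕ Fin m → F) :
    spEnd g v = g • v := rfl

/-- the functional `ω(·, p)` -/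
def spDual (p : Fin m ⊕ Fin m → F) : (Fin m ⊕ Fin m → F) →ₗ[F] F where
  toFun v := sympForm m F v p
  map_add' u v := form_add_left u v p
  map_smul' c v := form_smul_left c v p

@[simp] theorem spDual_apply (p v : Fin m ⊕ Fin m → F) : spDual p v = sympForm m F v p := rfl

/-- symplectic transvection directions -/
def spX (m : ℕ) (F : Type*) [Field F] : Set (Module.End F (Fin m ⊕ Fin m → F)) :=
  {X | ∃ p, p ≠ 0 ∧ X = rk p (spDual p)}

theorem sp_opp {p r : Fin m ⊕ Fin m → F} (h : sympForm m F p r ≠ 0) :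
    LOpp (RingHom.id F) (rk p (spDual p)) (rk r (spDual r)) :=
  rk_opp (l := _) rfl (by rw [spDual_apply, form_skew]; exact neg_ne_zero.mpr h) h

theorem spX_deg : ∀ X ∈ spX m F, ∀ Y ∈ spX m F, X * Y = Y * X ∨ LOpp (RingHom.id F) X Y := by
  rintro _ ⟨p, -, rfl⟩ _ ⟨r, -, rfl⟩
  by_cases h : sympForm m F p r = 0
  · exact Or.inl (rk_comm (by rw [spDual_apply, form_skew, h, neg_zero]) h)
  · exact Or.inr (sp_opp h)

theorem spEnd_tv (p : Fin m ⊕ Fin m → F) (c : F) :
    spEnd (tv p c) = 1 + c • rk p (spDual p) :=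
  eq_one_add_rk.mpr fun v => by rw [spEnd_apply, tv_smul]; rfl

theorem spFam : LinFam (RingHom.id F) (spEnd : symplecticGroup (Fin m) F →* _) (spX m F) where
  inj := mEnd_injective.comp Subtype.val_injective
  sq := by rintro _ ⟨p, -, rfl⟩; exact rk_sq (form_self p)
  ne := by
    rintro _ ⟨p, h, rfl⟩
    exact rk_ne_zero h fun e => h (eq_zero_of_form_right fun v => by
      simpa using congrArg (fun z : _ →ₗ[F] F => z v) e)
  ex := by rintro _ ⟨p, -, rfl⟩ c; exact ⟨_, spEnd_tv p c⟩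
  conj := by
    rintro _ ⟨p, h, rfl⟩ g
    refine ⟨_, map_ne_zero_of_hom spEnd g h, ?_⟩
    rw [rk_conj]
    congr 1
    refine LinearMap.ext fun v => ?_
    simp only [LinearMap.comp_apply, spDual_apply, spEnd_apply]
    rw [← form_smul_smul g, smul_inv_smul]
  pair := fun X hX Y hY => (spX_deg X hX Y hY).imp_right Or.inl

theorem sp_connected : IsConnectedFamily (FAdj (LRoot (RingHom.id F) spEnd '' spX m F))
    (LRoot (RingHom.id F) (spEnd : symplecticGroup (Fin m) F →* _) '' spX m F) := by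
  refine spFam.connected_of_opp ?_
  rintro _ ⟨p, hp, rfl⟩ _ ⟨r, hr, rfl⟩
  obtain ⟨w, -, h1, h2⟩ := nondeg_top.exists_common Submodule.mem_top Submodule.mem_top hp hr
  exact ⟨_, ⟨w, by rintro rfl; exact h1 (form_zero_right _), rfl⟩, sp_opp h1, sp_opp h2⟩

theorem sp_generates :
    (⨆ A ∈ LRoot (RingHom.id F) (spEnd : symplecticGroup (Fin m) F →* _) '' spX m F, A) = ⊤ := by
  refine eq_top_of_tv_mem fun w c => ?_
  by_cases h : w = 0
  · rw [h, tv_zero_vec]; exact Subgroup.one_mem _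
  · have h1 : rk w (spDual w) ∈ spX m F := ⟨w, h, rfl⟩
    have h2 : tv w c ∈ LRoot (RingHom.id F) spEnd (rk w (spDual w)) :=
      Subgroup.subset_closure ⟨c, spEnd_tv w c⟩
    exact le_bisup _ _ (Set.mem_image_of_mem _ h1) h2

end sp

section su
open Cfsg.Agent.Class.U
variable {F : Type*} [Field F] {q n : ℕ}

/-- `SU` acting on column vectors -/
def suEnd : SU n F q →* Module.End F (Fin n → F) := slEnd.comp (Subgroup.subtype _)

theorem suEnd_apply (g : SU n F q) (v : Fin n → F) : suEnd g v = g • v := rfl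

/-- the functional `h(·, p)` -/
def suDual (q : ℕ) (p : Fin n → F) : (Fin n → F) →ₗ[F] F where
  toFun v := hermForm n F q v p
  map_add' u v := herm_add_left u v p
  map_smul' c v := herm_smul_left c v p

@[simp] theorem suDual_apply (p v : Fin n → F) : suDual q p v = hermForm n F q v p := rfl

/-- unitary transvection directions -/
def suX (n q : ℕ) (ε : F) : Set (Module.End F (Fin n → F)) :=
  {X | ∃ p, p ≠ 0 ∧ hermForm n F q p p = 0 ∧ X = rk (ε • p) (suDual q p)}

variable [UF F q] {K : Type*} [Field K] [Finite K] (hK : Nat.card K = q) (f : K →+* F) {ε : F}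
  (h0 : ε ≠ 0) (hε : ε + conj F q ε = 0)
include hK h0 hε

theorem su_opp {p r : Fin n → F} (h : hermForm n F q p r ≠ 0) :
    LOpp f (rk (ε • p) (suDual q p)) (rk (ε • r) (suDual q r)) := by
  have e : conj F q ε = -ε := by linear_combination hε
  obtain ⟨l, hl⟩ := exists_eq_of_conj_eq hK f (y := suDual q p (ε • r) * suDual q r (ε • p)) (by
    simp only [suDual_apply, herm_smul_left, map_mul, herm_conj, e]; ring)
  refine rk_opp hl.symm ?_ ?_
  · rw [suDual_apply, herm_smul_left]; exact mul_ne_zero h0 (herm_comm_ne h)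
  · rw [suDual_apply, herm_smul_left]; exact mul_ne_zero h0 h

theorem suX_deg : ∀ X ∈ suX n q ε, ∀ Y ∈ suX n q ε, X * Y = Y * X ∨ LOpp f X Y := by
  rintro _ ⟨p, -, -, rfl⟩ _ ⟨r, -, -, rfl⟩
  by_cases h : hermForm n F q p r = 0
  · exact Or.inl (rk_comm (by rw [suDual_apply, herm_smul_left, herm_comm_zero h, mul_zero])
      (by rw [suDual_apply, herm_smul_left, h, mul_zero]))
  · exact Or.inr (su_opp hK f h0 hε h)

theorem suFam : LinFam f (suEnd : SU n F q →* _) (suX n q ε) where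
  inj := slEnd_injective.comp Subtype.val_injective
  sq := by rintro _ ⟨p, -, h, rfl⟩; exact rk_sq (by rw [suDual_apply, herm_smul_left, h, mul_zero])
  ne := by
    rintro _ ⟨p, h, -, rfl⟩
    exact rk_ne_zero (smul_ne_zero h0 h) fun e => h (eq_zero_of_herm_right (q := q) fun v => by
      simpa using congrArg (fun z : _ →ₗ[F] F => z v) e)
  ex := by
    rintro _ ⟨p, -, h, rfl⟩ c
    obtain ⟨g, hg⟩ := exists_transvection (a := f c * ε) h (by
      rw [map_mul, conj_ringHom hK, ← mul_add, hε, mul_zero])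
    refine ⟨g, eq_one_add_rk.mpr fun v => ?_⟩
    rw [suEnd_apply, hg.smul_zero_vec, smul_smul, suDual_apply]
    congr 2; ring
  conj := by
    rintro _ ⟨p, h, hp, rfl⟩ g
    refine ⟨_, map_ne_zero_of_hom suEnd g h, by rw [suEnd_apply, SU_herm, hp], ?_⟩
    rw [rk_conj, map_smul]
    congr 1
    refine LinearMap.ext fun v => ?_
    simp only [LinearMap.comp_apply, suDual_apply, suEnd_apply]
    rw [← SU_herm g, smul_inv_smul]
  pair := fun X hX Y hY => (suX_deg hK f h0 hε X hX Y hY).imp_right Or.inl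

theorem su_connected : IsConnectedFamily (FAdj (LRoot f suEnd '' suX n q ε))
    (LRoot f (suEnd : SU n F q →* _) '' suX n q ε) := by
  refine (suFam hK f h0 hε).connected_of_opp ?_
  rintro _ ⟨p, hp, hp', rfl⟩ _ ⟨r, hr, hr', rfl⟩
  obtain ⟨w, h, h1, h2⟩ := exists_common_isotropic hp hr hp' hr'
  exact ⟨_, ⟨w, by rintro rfl; exact h1 (herm_zero_right _), h, rfl⟩, su_opp hK f h0 hε h1,
    su_opp hK f h0 hε h2⟩

theorem su_set {p : Fin n → F} (hp : p ≠ 0) (hp' : hermForm n F q p p = 0) (g : SU n F q) :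
    ((∀ v, ∃ c : F, g • v = v + c • p) ∧ ∀ v, hermForm n F q v p = 0 → g • v = v) ↔
      ∃ c, suEnd g = 1 + f c • rk (ε • p) (suDual q p) := by
  constructor
  · rintro ⟨h1, h2⟩
    obtain ⟨w, hw, hpw⟩ := exists_partner hp hp'
    have hwp := herm_comm_one hpw
    obtain ⟨a, ha⟩ := h1 w
    have e := SU_herm g w w
    rw [ha] at e
    simp only [herm_add_left, herm_add_right, herm_smul_left, herm_smul_right, hw, hpw, hwp,
      hp'] at e
    have e1 : conj F q ε = -ε := by linear_combination hε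
    have e2 : conj F q a = -a := by linear_combination e
    obtain ⟨c, hc⟩ := exists_eq_of_conj_eq hK f (y := a / ε) (by
      rw [map_div₀, e1, e2, neg_div_neg_eq])
    refine ⟨c, eq_one_add_rk.mpr fun v => ?_⟩
    have := h2 (v - hermForm n F q v p • w) (by rw [herm_sub_left, herm_smul_left, hwp]; simp)
    rw [smul_sub, SU_smul_comm, ha, sub_eq_iff_eq_add] at this
    rw [suEnd_apply, hc, smul_smul, suDual_apply, show a / ε * hermForm n F q v p * ε =
      hermForm n F q v p * a by field_simp, mul_smul, this]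
    module
  · rintro ⟨c, hc⟩
    have := eq_one_add_rk.mp hc
    simp only [suEnd_apply, suDual_apply, smul_smul] at this
    exact ⟨fun v => ⟨_, this v⟩, fun v hv => by rw [this v, hv]; simp⟩

end su

end Cfsg.Agent.RootSub
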