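import Mathlib
import Cfsg.Agent.RootSub.LinEx
import Cfsg.Agent.Class.Orth.Trans
import Cfsg.Agent.Class.Orth.Std

set_option autoImplicit false
set_option linter.unusedSimpArgs false
set_option linter.unusedSectionVars false

/-! Siegel transvection groups as a linear root family. -/

namespace Cfsg.Agent.RootSub

open Cfsg Cfsg.Agent.QP Relation QuadraticMap Cfsg.Agent.Class.Orth

variable {F V : Type*} [Field F] [AddCommGroup V] [Module F V] {Q : QuadraticForm F V}

/-- `v ↦ B(r, v) p - B(p, v) r` -/
noncomputable def wedge (Q : QuadraticForm F V) (p r : V) : Module.End F V :=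
  rk p (polarBilin Q r) - rk r (polarBilin Q p)

theorem wedge_apply (p r v : V) : wedge Q p r v = polar Q r v • p - polar Q p v • r := rfl

/-- a basis of a singular line -/
structure SLine (Q : QuadraticForm F V) (p r : V) : Prop where
  qp : Q p = 0
  qr : Q r = 0
  pr : polar Q p r = 0
  ind : ∀ a b : F, a • p + b • r = 0 → a = 0 ∧ b = 0

variable {p r s t : V}

theorem SLine.pp (h : SLine Q p r) : polar Q p p = 0 := polar_self_of_Q_eq_zero h.qp
theorem SLine.rr (h : SLine Q p r) : polar Q r r = 0 := polar_self_of_Q_eq_zero h.qr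
theorem SLine.rp (h : SLine Q p r) : polar Q r p = 0 := by rw [polar_comm, h.pr]

theorem SLine.swap (h : SLine Q p r) : SLine Q r (-p) :=
  ⟨h.qr, by rw [Q.map_neg, h.qp], by rw [polar_neg_right, h.rp, neg_zero], fun a b e => by
    obtain ⟨h1, h2⟩ := h.ind (-b) a (by rw [← e]; module)
    exact ⟨h2, neg_eq_zero.mp h1⟩⟩

theorem SLine.ne (h : SLine Q p r) : p ≠ 0 := fun e =>
  one_ne_zero (h.ind 1 0 (by simp [e])).1

theorem SLine.Q_comb (h : SLine Q p r) (a b : F) : Q (a • p - b • r) = 0 := by
  rw [Q_sub, Q_smul, Q_smul, polar_smul_left', polar_smul_right', h.qp, h.qr, h.pr]; ring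

theorem wedge_swap (p r : V) : wedge Q r (-p) = wedge Q p r := by
  ext v; simp only [wedge_apply, polar_neg_left]; module

theorem wedge_eq_zero {a b : F} (h : a • p + b • r = 0) (hab : ¬ (a = 0 ∧ b = 0)) :
    wedge Q p r = 0 := by
  by_cases ha : a = 0
  · have hb : b ≠ 0 := fun e => hab ⟨ha, e⟩
    have : r = 0 := by simpa [ha, hb] using h
    ext v; simp [wedge_apply, this]
  · have : p = (-(b / a)) • r := by
      have : a • p = a • (-(b / a)) • r := by
        rw [smul_smul, eq_neg_of_add_eq_zero_left h, ← neg_smul]; congr 1; field_simp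
      exact smul_right_injective V ha this
    ext v; simp only [wedge_apply, this, polar_smul_left', LinearMap.zero_apply]; module

theorem SLine.duals (hQ : ND Q) (h : SLine Q p r) : ∃ x y, polar Q p x = 1 ∧ polar Q r x = 0 ∧
    polar Q p y = 0 ∧ polar Q r y = 1 := by
  obtain ⟨x, -, h1, h2⟩ := hQ.ndon_top.exists_polar_eq_eq_zero (x := p) (y := r) trivial trivial
    (fun c e => one_ne_zero (h.ind 1 (-c) (by rw [e]; module)).1) 1
  obtain ⟨y, -, h3, h4⟩ := hQ.ndon_top.exists_polar_eq_eq_zero (x := r) (y := p) trivial trivial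
    (fun c e => one_ne_zero (h.ind (-c) 1 (by rw [e]; module)).2) 1
  exact ⟨x, y, h1, h2, h4, h3⟩

theorem wedge_mul_mul (p r s t : V) : wedge Q p r * wedge Q s t * wedge Q p r =
    (polar Q p t * polar Q r s - polar Q p s * polar Q r t) • wedge Q p r := by
  ext v
  simp only [Module.End.mul_apply, wedge_apply, LinearMap.smul_apply, polar_sub_right,
    polar_smul_right', polar_comm Q s p, polar_comm Q s r, polar_comm Q t p, polar_comm Q t r]
  module

theorem wedge_opp (h : polar Q p t * polar Q r s - polar Q p s * polar Q r t ≠ 0) :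
    LOpp (RingHom.id F) (wedge Q p r) (wedge Q s t) :=
  ⟨_, h, wedge_mul_mul p r s t, by
    rw [wedge_mul_mul, polar_comm Q s p, polar_comm Q s r, polar_comm Q t p, polar_comm Q t r]
    congr 1; simp only [RingHom.id_apply]; ring⟩

/-- Siegel directions -/
def sgX (Q : QuadraticForm F V) : Set (Module.End F V) := {X | ∃ p r, SLine Q p r ∧ X = wedge Q p r}

theorem sg_comm_case (h : SLine Q p r) (k : SLine Q s t)
    (hdet : polar Q p t * polar Q r s - polar Q p s * polar Q r t = 0) (hd : polar Q r t ≠ 0)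
    (hne : wedge Q p r * wedge Q s t ≠ wedge Q s t * wedge Q p r) :
    wedge Q p r * wedge Q s t - wedge Q s t * wedge Q p r ∈ sgX Q := by
  have ha : polar Q p s = polar Q p t * polar Q r s / polar Q r t := by
    field_simp; linear_combination -hdet
  have e : wedge Q p r * wedge Q s t - wedge Q s t * wedge Q p r =
      wedge Q ((1 : F) • s - (polar Q r s / polar Q r t) • t)
        (polar Q r t • p - polar Q p t • r) := by
    ext v
    simp only [Module.End.mul_apply, wedge_apply, LinearMap.sub_apply, polar_sub_right,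
      polar_smul_right', polar_sub_left, polar_smul_left', polar_comm Q s p, polar_comm Q s r,
      polar_comm Q t p, polar_comm Q t r, ha]
    match_scalars <;> field_simp <;> ring
  refine ⟨_, _, ⟨k.Q_comb _ _, h.Q_comb _ _, ?_, fun a b hab => ?_⟩, e⟩
  · simp only [polar_sub_right, polar_smul_right', polar_sub_left, polar_smul_left',
      polar_comm Q s p, polar_comm Q s r, polar_comm Q t p, polar_comm Q t r, ha]
    field_simp; ring
  · by_contra hc
    exact hne (sub_eq_zero.mp (e.trans (wedge_eq_zero hab hc)))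

theorem sg_pair : ∀ X ∈ sgX Q, ∀ Y ∈ sgX Q, X * Y = Y * X ∨ LOpp (RingHom.id F) X Y ∨
    (X * Y * X = 0 ∧ Y * X * Y = 0 ∧ X * Y - Y * X ∈ sgX Q) := by
  rintro _ ⟨p, r, h, rfl⟩ _ ⟨s, t, k, rfl⟩
  by_cases hne : wedge Q p r * wedge Q s t = wedge Q s t * wedge Q p r
  · exact Or.inl hne
  by_cases hdet : polar Q p t * polar Q r s - polar Q p s * polar Q r t = 0
  swap
  · exact Or.inr (Or.inl (wedge_opp hdet))
  refine Or.inr (Or.inr ⟨by rw [wedge_mul_mul, hdet, zero_smul], by
    rw [wedge_mul_mul, polar_comm Q s p, polar_comm Q s r, polar_comm Q t p, polar_comm Q t r,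
      mul_comm (polar Q r s), hdet, zero_smul], ?_⟩)
  by_cases h1 : polar Q r t = 0
  swap
  · exact sg_comm_case h k hdet h1 hne
  by_cases h2 : polar Q p t = 0
  swap
  · rw [← wedge_swap p r] at hne ⊢
    exact sg_comm_case h.swap k (by simp only [polar_neg_left]; linear_combination hdet)
      (by simpa [polar_neg_left] using h2) hne
  by_cases h3 : polar Q r s = 0
  swap
  · rw [← wedge_swap s t] at hne ⊢
    exact sg_comm_case h k.swap (by simp only [polar_neg_right]; linear_combination hdet)
      (by simpa [polar_neg_right] using h3) hne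
  by_cases h4 : polar Q p s = 0
  swap
  · rw [← wedge_swap p r, ← wedge_swap s t] at hne ⊢
    exact sg_comm_case h.swap k.swap
      (by simp only [polar_neg_left, polar_neg_right]; linear_combination hdet)
      (by simpa [polar_neg_left, polar_neg_right] using h4) hne
  exfalso
  apply hne
  ext v
  simp only [Module.End.mul_apply, wedge_apply, polar_sub_right, polar_smul_right',
    polar_comm Q s p, polar_comm Q s r, polar_comm Q t p, polar_comm Q t r, h1, h2, h3, h4]
  simp

theorem eq_one_add_wedge {a : Module.End F V} {c : F} :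
    a = 1 + c • wedge Q p r ↔ ∀ v, a v = v + c • (polar Q r v • p - polar Q p v • r) := by
  rw [LinearMap.ext_iff]; rfl

variable {Γ : Type*} [Group Γ] {ι : Γ →* Module.End F V}

theorem polar_of_pres (hq : ∀ g v, Q (ι g v) = Q v) (g : Γ) (x y : V) :
    polar Q (ι g x) (ι g y) = polar Q x y := by
  simp only [polar, ← map_add, hq]

theorem sgFam (hQ : ND Q) (hi : Function.Injective ι) (hq : ∀ g v, Q (ι g v) = Q v)
    (hs : ∀ σ : OG Q, ∃ g, ∀ v, ι g v = σ.1 v) : LinFam (RingHom.id F) ι (sgX Q) where
  inj := hi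
  sq := by
    rintro _ ⟨p, r, h, rfl⟩
    ext v
    simp [wedge_apply, polar_sub_right, polar_smul_right', h.pp, h.rr, h.pr, h.rp]
  ne := by
    rintro _ ⟨p, r, h, rfl⟩ e
    obtain ⟨x, y, -, -, h1, h2⟩ := h.duals hQ
    have := congrArg (fun z : Module.End F V => z y) e
    simp only [wedge_apply, h1, h2, one_smul, zero_smul, sub_zero, LinearMap.zero_apply] at this
    exact h.ne this
  ex := by
    rintro _ ⟨p, r, h, rfl⟩ c
    obtain ⟨g, hg⟩ := hs (eichler Q p (c • r))
    refine ⟨g, eq_one_add_wedge.mpr fun v => ?_⟩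
    rw [hg, eichler_apply h.qp (by rw [polar_smul_right', h.pr, mul_zero]), Q_smul, h.qr,
      polar_smul_right', polar_comm Q v, polar_comm Q v, RingHom.id_apply]
    module
  conj := by
    rintro _ ⟨p, r, h, rfl⟩ g
    refine ⟨ι g p, ι g r, ⟨by rw [hq, h.qp], by rw [hq, h.qr], by rw [polar_of_pres hq, h.pr],
      fun a b e => h.ind a b ?_⟩, ?_⟩
    · rw [← inv_apply_hom ι g (a • p + b • r), map_add, map_smul, map_smul, e, map_zero]
    · ext v
      have e : ι g (ι g⁻¹ v) = v := by
        have := inv_apply_hom ι g⁻¹ v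
        rwa [inv_inv] at this
      simp only [Module.End.mul_apply, wedge_apply, map_sub, map_smul]
      rw [← polar_of_pres hq g r, ← polar_of_pres hq g p, e]
  pair := sg_pair

theorem sg_set (hQ : ND Q) (hq : ∀ g v, Q (ι g v) = Q v) (h : SLine Q p r) (g : Γ) :
    (∀ v, polar Q v p = 0 → polar Q v r = 0 → ι g v = v) ↔
      ∃ c : F, ι g = 1 + RingHom.id F c • wedge Q p r := by
  constructor
  · intro hg
    obtain ⟨x, y, h1, h2, h3, h4⟩ := h.duals hQ
    have fix : ∀ v, ι g (v - polar Q p v • x - polar Q r v • y) =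
        v - polar Q p v • x - polar Q r v • y := fun v => hg _
      (by rw [polar_comm]; simp [polar_sub_right, polar_smul_right', h1, h3])
      (by rw [polar_comm]; simp [polar_sub_right, polar_smul_right', h2, h4])
    have mv : ∀ w, ι g w = w + polar Q (ι g w - w) x • p + polar Q (ι g w - w) y • r := by
      intro w
      have := hQ (ι g w - w - polar Q (ι g w - w) x • p - polar Q (ι g w - w) y • r) fun v => by
        have e := polar_of_pres hq g w (v - polar Q p v • x - polar Q r v • y)
        rw [fix] at e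
        simp only [polar_sub_left, polar_sub_right, polar_smul_left', polar_smul_right'] at e ⊢
        linear_combination e
      linear_combination (norm := module) this
    obtain ⟨a, b, hx⟩ : ∃ a b : F, ι g x = x + a • p + b • r := ⟨_, _, mv x⟩
    obtain ⟨c, d, hy⟩ : ∃ a b : F, ι g y = y + a • p + b • r := ⟨_, _, mv y⟩
    have e1 := hq g x
    have e2 := hq g y
    have e3 := polar_of_pres hq g x y
    rw [hx] at e1 e3
    rw [hy] at e2 e3
    simp only [Q_add, Q_smul, polar_add_left, polar_add_right, polar_smul_left', polar_smul_right',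
      h.qp, h.qr, h.pp, h.rr, h.pr, h.rp, polar_comm Q x p, polar_comm Q x r, polar_comm Q y p,
      polar_comm Q y r, h1, h2, h3, h4] at e1 e2 e3
    have ea : a = 0 := by linear_combination e1
    have ed : d = 0 := by linear_combination e2
    have eb : b = -c := by linear_combination e3
    refine ⟨c, eq_one_add_wedge.mpr fun v => ?_⟩
    have := fix v
    rw [map_sub, map_sub, map_smul, map_smul, hx, hy, ea, ed, eb] at this
    rw [RingHom.id_apply]
    linear_combination (norm := module) this
  · rintro ⟨c, hc⟩ v h1 h2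
    rw [eq_one_add_wedge.mp hc, polar_comm Q r, polar_comm Q p, h1, h2]; simp

theorem sg_common (hQ : ND Q) {p' r' : V} (h : SLine Q p r) (k : SLine Q p' r')
    (e1 : polar Q p p' = 0) (e2 : polar Q p r' = 0) (e3 : polar Q r p' = 0)
    (e4 : polar Q r r' = 0) :
    ∃ Z ∈ sgX Q, LOpp (RingHom.id F) (wedge Q p r) Z ∧ LOpp (RingHom.id F) (wedge Q p' r') Z := by
  obtain ⟨s, -, hs, s1, s2⟩ := hQ.ndon_top.exists_singular_ne_ne (x := p) (y := p') trivial trivial
    h.ne k.ne h.qp e1
  obtain ⟨f, hf⟩ := hQ.exists_isHyp (e := s) (by rintro rfl; simp at s1) hs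
  have key : ∀ {p r : V}, SLine Q p r → polar Q p s ≠ 0 →
      polar Q (polar Q r s • p - polar Q p s • r) s = 0 ∧
      hproj Q s f (polar Q r s • p - polar Q p s • r) ≠ 0 := by
    intro p r h s1
    have w0 : polar Q (polar Q r s • p - polar Q p s • r) s = 0 := by
      rw [polar_sub_left, polar_smul_left', polar_smul_left']; ring
    refine ⟨w0, fun e => ?_⟩
    have := hproj_add (Q := Q) s f (polar Q r s • p - polar Q p s • r)
    rw [e, w0, zero_smul, add_zero, add_zero] at this
    have h2 := congrArg (polar Q p) this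
    rw [polar_smul_right', polar_sub_right, polar_smul_right', polar_smul_right', h.pp, h.pr,
      mul_zero, mul_zero, sub_zero] at h2
    rw [(mul_eq_zero.mp h2).resolve_right s1, zero_smul] at this
    exact s1 (neg_eq_zero.mp (h.ind _ (-polar Q p s) (by rw [this]; module)).2)
  obtain ⟨w0, w1⟩ := key h s1
  obtain ⟨w0', w1'⟩ := key k s2
  obtain ⟨t, ht, t0, t1, t2⟩ := (hQ.ndon_perp2 hf).exists_singular_ne_ne (hf.hproj_mem _)
    (hf.hproj_mem _) w1 w1' (by
      have := hf.Q_hproj (polar Q r s • p - polar Q p s • r)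
      rwa [h.Q_comb, w0, mul_zero, zero_add, eq_comm] at this) (by
      rw [polar_hproj (hf.hproj_mem _), hproj, w0]
      simp only [polar_sub_left, polar_sub_right, polar_smul_left', polar_smul_right', e1, e2, e3,
        e4, polar_comm Q s p', polar_comm Q s r']
      ring)
  rw [polar_comm, polar_hproj ht, polar_sub_right, polar_smul_right', polar_smul_right',
    polar_comm Q t, polar_comm Q t] at t1 t2
  rw [mem_perp2] at ht
  refine ⟨_, ⟨s, t, ⟨hs, t0, ht.1, fun a b e => ?_⟩, rfl⟩, wedge_opp (by rwa [mul_comm]),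
    wedge_opp (by rwa [mul_comm])⟩
  have := congrArg (polar Q f) e
  rw [polar_add_right, polar_smul_right', polar_smul_right', hf.pol', ht.2, polar_zero_right]
    at this
  have ha : a = 0 := by linear_combination this
  refine ⟨ha, ?_⟩
  rw [ha, zero_smul, zero_add] at e
  exact (smul_eq_zero.mp e).resolve_right (by rintro rfl; simp at t1)

theorem sg_connected (hQ : ND Q) (hF : LinFam (RingHom.id F) ι (sgX Q))
    (E : Submodule F V) (hE : ∀ v ∈ E, Q v = 0)
    (h3 : ∀ x y : V, ∃ t ∈ E, t ≠ 0 ∧ polar Q x t = 0 ∧ polar Q y t = 0) :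
    IsConnectedFamily (FAdj (LRoot (RingHom.id F) ι '' sgX Q)) (LRoot (RingHom.id F) ι '' sgX Q) := by
  have hEE : ∀ u ∈ E, ∀ v ∈ E, polar Q u v = 0 := fun u hu v hv => by
    have := Q_add Q u v
    rw [hE _ (E.add_mem hu hv), hE u hu, hE v hv] at this
    linear_combination -this
  have step : ∀ {p r p' r' : V}, SLine Q p r → SLine Q p' r' → polar Q p p' = 0 →
      polar Q p r' = 0 → polar Q r p' = 0 → polar Q r r' = 0 →
      ReflTransGen (FAdj (LRoot (RingHom.id F) ι '' sgX Q)) (LRoot (RingHom.id F) ι (wedge Q p r))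
        (LRoot (RingHom.id F) ι (wedge Q p' r')) := by
    intro p r p' r' h k e1 e2 e3 e4
    obtain ⟨Z, hZ, o1, o2⟩ := sg_common hQ h k e1 e2 e3 e4
    exact (ReflTransGen.single (hF.adj ⟨_, _, h, rfl⟩ hZ o1)).tail (hF.adj hZ ⟨_, _, k, rfl⟩ o2.symm)
  have toE : ∀ {p r : V}, SLine Q p r → ∃ t ∈ E, ∃ t' ∈ E, SLine Q t t' ∧
      ReflTransGen (FAdj (LRoot (RingHom.id F) ι '' sgX Q)) (LRoot (RingHom.id F) ι (wedge Q p r))
        (LRoot (RingHom.id F) ι (wedge Q t t')) := by
    intro p r h
    obtain ⟨t, ht, t0, t1, t2⟩ := h3 p r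
    obtain ⟨u, hu, u1, u2⟩ : ∃ u, SLine Q t u ∧ polar Q p u = 0 ∧ polar Q r u = 0 := by
      by_contra hc
      have k : ∀ u, Q u = 0 → polar Q u t = 0 → polar Q p u = 0 → polar Q r u = 0 →
          ∃ c : F, u = c • t := by
        intro u q1 q2 q3 q4
        by_contra hn
        push Not at hn
        refine hc ⟨u, ⟨hE t ht, q1, by rw [polar_comm, q2], fun a b e => ?_⟩, q3, q4⟩
        have hb : b = 0 := by
          by_contra hb
          apply hn (-(a / b))
          apply smul_right_injective V hb
          simp only [smul_smul]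
          rw [eq_neg_of_add_eq_zero_right e, ← neg_smul]; congr 1; field_simp
        rw [hb, zero_smul, add_zero] at e
        exact ⟨(smul_eq_zero.mp e).resolve_right t0, hb⟩
      obtain ⟨c, hc⟩ := k p h.qp t1 h.pp h.rp
      obtain ⟨d, hd⟩ := k r h.qr t2 h.pr h.rr
      obtain ⟨h1, h2⟩ := h.ind d (-c) (by rw [hc, hd]; module)
      rw [neg_eq_zero.mp h2, zero_smul] at hc
      exact h.ne hc
    obtain ⟨y, hy⟩ := hQ.exists_polar_eq t0 1
    obtain ⟨t', ht', t0', t1', t2'⟩ := h3 u y
    have hl : SLine Q t t' := ⟨hE t ht, hE t' ht', hEE t ht t' ht', fun a b e => by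
      have := congrArg (polar Q y) e
      rw [polar_add_right, polar_smul_right', polar_smul_right', polar_comm Q y t, hy, t2',
        polar_zero_right] at this
      have ha : a = 0 := by linear_combination this
      rw [ha, zero_smul, zero_add] at e
      exact ⟨ha, (smul_eq_zero.mp e).resolve_right t0'⟩⟩
    exact ⟨t, ht, t', ht', hl, (step h hu t1 u1 t2 u2).trans (step hu hl hu.pp hl.pr hu.rp t1')⟩
  rintro _ ⟨_, ⟨p, r, h, rfl⟩, rfl⟩ _ ⟨_, ⟨p', r', k, rfl⟩, rfl⟩
  obtain ⟨t, ht, t', ht', l1, c1⟩ := toE h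
  obtain ⟨u, hu, u', hu', l2, c2⟩ := toE k
  exact (c1.trans (step l1 l2 (hEE _ ht _ hu) (hEE _ ht _ hu') (hEE _ ht' _ hu)
    (hEE _ ht' _ hu'))).trans (freach_symm c2)

end Cfsg.Agent.RootSub
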