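import Mathlib
import Cfsg.Agent.RootSub.Special2
import Cfsg.Agent.RootSub.Steinberg2

set_option autoImplicit false

/-! Triangles of abstract root subgroups; rank one pairs in a class are special. -/

namespace Cfsg.Agent.RootSub

open Cfsg Subgroup Relation
open scoped commutatorElement MatrixGroups

theorem cubic_aux {H : Type*} [CommGroup H] {a a1 a2 a3 n1 n2 n3 : H}
    (h1 : a⁻¹ * a1 * n1 = a1⁻¹ * a2 * n2) (h2 : a1⁻¹ * a2 * n2 = a2⁻¹ * a3 * n3)
    (h3 : n2 * n1⁻¹ = n3 * n2⁻¹) : a = a1 * a1 * a1 * (a2 * a2 * a2)⁻¹ * a3 := by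
  have h1' := congrArg Additive.ofMul h1
  have h2' := congrArg Additive.ofMul h2
  have h3' := congrArg Additive.ofMul h3
  apply Additive.ofMul.injective
  simp only [ofMul_mul, ofMul_inv] at *
  linear_combination (norm := abel) -h1' + h2' - h3'

theorem inv_aux {H : Type*} [CommGroup H] {a a1 a' a1' n n1 : H} :
    a1 * a1' = (a⁻¹ * a1 * n1) * (n1 * n⁻¹)⁻¹ * (a1'⁻¹ * a' * n)⁻¹ * (a * a') := by
  apply Additive.ofMul.injective
  simp only [ofMul_mul, ofMul_inv]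
  abel

variable {G : Type*} [Group G] {A B : Subgroup G} {n : G}

/-- `n` centralizes `A` and moves `B` to a subgroup commuting with `B` -/
structure Good (A B : Subgroup G) (n : G) : Prop where
  r : IsRankOnePair A B
  aa : ⁅A, A⁆ = ⊥
  bb : ⁅B, B⁆ = ⊥
  cA : ∀ a ∈ A, n * a = a * n
  cB : ⁅B, conjBy B n⁆ = ⊥

namespace Good

theorem c1 (h : Good A B n) {b b' : G} (hb : b ∈ B) (hb' : b' ∈ B) :
    Commute b (n * b' * n⁻¹) := comm_of_commutator_eq_bot h.cB hb (conj_mem_conjBy hb' n)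

theorem c0 (h : Good A B n) {b b' : G} (hb : b ∈ B) (hb' : b' ∈ B) : Commute b b' :=
  comm_of_commutator_eq_bot h.bb hb hb'

theorem e_eq (b n : G) : ⁅b, n⁆ = b * (n * b⁻¹ * n⁻¹) := by rw [commutatorElement_def]; group

theorem e_comm (h : Good A B n) {b b' : G} (hb : b ∈ B) (hb' : b' ∈ B) : Commute ⁅b, n⁆ b' := by
  rw [e_eq]
  exact (h.c0 hb hb').mul_left (h.c1 hb' (inv_mem hb)).symm

theorem e_mul (h : Good A B n) {b b' : G} (hb : b ∈ B) (hb' : b' ∈ B) :
    ⁅b * b', n⁆ = ⁅b, n⁆ * ⁅b', n⁆ := by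
  calc ⁅b * b', n⁆ = b * ⁅b', n⁆ * b⁻¹ * ⁅b, n⁆ := by simp only [commutatorElement_def]; group
    _ = ⁅b', n⁆ * ⁅b, n⁆ := by rw [← (h.e_comm hb' hb).eq]; group
    _ = _ := by
      rw [e_eq b n]
      refine ((h.e_comm hb' hb).mul_right ?_).eq
      rw [e_eq]
      exact (h.c1 hb' (inv_mem hb)).mul_left ((h.c0 (inv_mem hb') (inv_mem hb)).conj n)

theorem e_inv (h : Good A B n) {b : G} (hb : b ∈ B) : ⁅b⁻¹, n⁆ = ⁅b, n⁆⁻¹ := by
  rw [eq_inv_iff_mul_eq_one, ← h.e_mul (inv_mem hb) hb]; simp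

theorem conj_n (h : Good A B n) {a b : G} (ha : a ∈ A) (e : conjBy A b = conjBy B a) :
    conjBy A (n * b * n⁻¹) = conjBy (conjBy B n) a := by
  rw [← conjBy_conjBy, ← conjBy_conjBy, conjBy_eq_self_iff.mpr
    (inv_mem (conjBy_eq_self_iff.mp (conjBy_of_centralizes h.cA))), e, conjBy_conjBy,
    conjBy_conjBy, h.cA a ha]

theorem conj_e (h : Good A B n) {b : G} (hb : b ∈ B) :
    conjBy A ⁅b, n⁆ = conjBy (conjBy A b) (n * b * n⁻¹)⁻¹ := by
  rw [conjBy_conjBy, e_eq, (h.c1 hb (inv_mem hb)).eq]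
  congr 1; group

theorem step (h : Good A B n) {b : G} (hb : b ∈ B) : Good B A ⁅b, n⁆ := by
  refine ⟨RankOnePair_symm h.r, h.bb, h.aa, fun b' hb' => h.e_comm hb hb', ?_⟩
  by_cases hb1 : b = 1
  · rw [hb1, commutatorElement_one_left, conjBy_one, h.aa]
  obtain ⟨a, ha, -, e⟩ := rankOne_exists_right h.r hb hb1
  have := conj_commutator_eq_bot (conj_commutator_eq_bot h.cB a) (n * b * n⁻¹)⁻¹
  rw [← h.conj_n ha e, ← e, ← h.conj_e hb, conjBy_inv_cancel] at this
  exact commutator_eq_bot_symm this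

theorem conj_ne (h : Good A B n) (hne : conjBy B n ≠ B) {b : G} (hb : b ∈ B) (hb1 : b ≠ 1) :
    conjBy A ⁅b, n⁆ ≠ A := by
  intro e0
  obtain ⟨a, ha, -, e⟩ := rankOne_exists_right h.r hb hb1
  rw [h.conj_e hb, conjBy_eq_iff, inv_inv, h.conj_n ha e, e, conjBy_inj] at e0
  exact hne e0.symm

theorem zB (h : Good A B n) {a b : G} (hb : b ∈ B) (e : conjBy A b = conjBy B a) {x : G}
    (hx : x ∈ B) : Commute (⁅b, n⁆⁻¹ * a⁻¹ * ⁅b, n⁆ * n * a) x := by
  have h1 : b⁻¹ * (a * x * a⁻¹) * b ∈ A := by rw [← mem_conjBy, e]; exact conj_mem_conjBy hx a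
  have h2 := (show Commute n _ from h.cA _ h1).conj b
  have h3 := h2.conj a⁻¹
  have : Commute (a⁻¹ * ⁅b, n⁆ * n * a) x := by
    convert h3 using 1
    · rw [commutatorElement_def]; group
    · group
  have := (h.e_comm hb hx).inv_left.mul_left this
  simpa only [mul_assoc] using this

/-- the abelian group generated by the conjugates of `A` under the `⁅b, n⁆` -/
def FF (A B : Subgroup G) (n : G) : Subgroup G :=
  closure {x | ∃ b ∈ B, x ∈ conjBy A ⁅b, n⁆}

theorem FF_comm (h : Good A B n) {x y : G} (hx : x ∈ FF A B n) (hy : y ∈ FF A B n) :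
    Commute x y := by
  have : IsMulCommutative (FF A B n) := by
    refine isMulCommutative_closure ?_
    rintro x ⟨b, hb, hx⟩ y ⟨b', hb', hy⟩
    have := conj_commutator_eq_bot (h.step (mul_mem (inv_mem hb) hb')).cB ⁅b, n⁆
    rw [conjBy_conjBy, ← h.e_mul hb (mul_mem (inv_mem hb) hb'), mul_inv_cancel_left] at this
    exact comm_of_commutator_eq_bot this hx hy
  exact isMulCommutative_iff.mp this x hx y hy

theorem mem_FF {a : G} (ha : a ∈ A) : a ∈ FF A B n :=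
  subset_closure ⟨1, one_mem _, by simpa [conjBy_one] using ha⟩

theorem conj_mem_FF (h : Good A B n) {b : G} (hb : b ∈ B) {x : G} (hx : x ∈ FF A B n) :
    ⁅b, n⁆ * x * ⁅b, n⁆⁻¹ ∈ FF A B n := by
  induction hx using closure_induction with
  | mem x hx =>
    obtain ⟨b', hb', hx⟩ := hx
    refine subset_closure ⟨b * b', mul_mem hb hb', ?_⟩
    rw [h.e_mul hb hb', ← conjBy_conjBy]
    exact conj_mem_conjBy hx _
  | one => rw [mul_one, mul_inv_cancel]; exact one_mem _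
  | mul x y _ _ hx hy => convert mul_mem hx hy using 1; group
  | inv x _ hx => convert inv_mem hx using 1; group

theorem conj_mem_FF' (h : Good A B n) {b : G} (hb : b ∈ B) {x : G} (hx : x ∈ FF A B n) :
    ⁅b, n⁆⁻¹ * x * ⁅b, n⁆ ∈ FF A B n := by
  have := h.conj_mem_FF (inv_mem hb) hx
  rwa [h.e_inv hb, inv_inv] at this

theorem normalize (h : Good A B n) (hne : conjBy B n ≠ B) :
    ∃ m, Good A B m ∧ conjBy B m ≠ B ∧ m ∈ FF A B m ∧ Good A B (m * m) := by
  obtain ⟨b, hb, hb1⟩ := rankOne_exists_ne_one (RankOnePair_symm h.r)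
  obtain ⟨a, ha, -, e⟩ := rankOne_exists_right h.r hb hb1
  have g1 := h.step (inv_mem hb)
  rw [h.e_inv hb] at g1
  have hz := fun x hx => h.zB hb e (x := x) hx
  set z := ⁅b, n⁆⁻¹ * a⁻¹ * ⁅b, n⁆ * n * a with hzd
  have hn : n = ⁅a⁻¹, ⁅b, n⁆⁻¹⁆ * z := by
    rw [hzd, mul_assoc _ n, h.cA a ha, commutatorElement_def a⁻¹]
    have := (h.FF_comm (mem_FF ha) (h.conj_mem_FF' hb (mem_FF (inv_mem ha)))).eq
    calc n = a⁻¹ * (⁅b, n⁆⁻¹ * a * ⁅b, n⁆) * ((⁅b, n⁆⁻¹ * a⁻¹ * ⁅b, n⁆) * a) * n := by group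
      _ = _ := by group
  have g2 := g1.step (inv_mem ha)
  have hee : ∀ x ∈ B, ⁅x, ⁅a⁻¹, ⁅b, n⁆⁻¹⁆⁆ = ⁅x, n⁆ := by
    intro x hx
    generalize ⁅a⁻¹, ⁅b, n⁆⁻¹⁆ = m at hn
    rw [hn, commutatorElement_def, commutatorElement_def]
    have := (hz _ (inv_mem hx)).eq
    calc _ = x * m * (x⁻¹ * z) * z⁻¹ * m⁻¹ := by group
      _ = _ := by rw [← this]; group
  refine ⟨_, g2, fun e1 => hne ?_, ?_, ?_⟩
  · rw [hn, ← conjBy_conjBy, conjBy_of_centralizes hz, e1]
  · have : FF A B ⁅a⁻¹, ⁅b, n⁆⁻¹⁆ = FF A B n := by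
      unfold FF; congr 1; ext x
      exact exists_congr fun y => and_congr_right fun hy => by rw [hee y hy]
    rw [this, e_eq, inv_inv, inv_inv]
    exact mul_mem (mem_FF (inv_mem ha)) (h.conj_mem_FF' hb (mem_FF ha))
  · rw [← g1.e_mul (inv_mem ha) (inv_mem ha)]
    exact g1.step (mul_mem (inv_mem ha) (inv_mem ha))

section core
variable (h : Good A B n) (hF : n ∈ FF A B n) (h2 : Good A B (n * n))
include h hF

theorem fix {z : G} (hz : z ∈ FF A B n) (hB : ∀ x ∈ B, Commute z x) {b : G} (hb : b ∈ B) :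
    ⁅b, n⁆ * z * ⁅b, n⁆⁻¹ = z := by
  have h1 := h.FF_comm hF hz
  have : Commute ⁅b, n⁆ z := (((hB b hb).symm.mul_left h1).mul_left
    (hB b hb).symm.inv_left).mul_left h1.inv_left
  rw [this.eq]; group

theorem z_mem {a b : G} (ha : a ∈ A) (hb : b ∈ B) :
    ⁅b, n⁆⁻¹ * a⁻¹ * ⁅b, n⁆ * n * a ∈ FF A B n :=
  mul_mem (mul_mem (h.conj_mem_FF' hb (mem_FF (inv_mem ha))) hF) (mem_FF ha)

include h2

omit hF in
theorem yB {b : G} (hb : b ∈ B) {x : G} (hx : x ∈ B) :
    Commute (⁅b, n⁆ * n * ⁅b, n⁆⁻¹ * n⁻¹) x := by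
  have e : ⁅b, n⁆ * n * ⁅b, n⁆⁻¹ * n⁻¹ =
      ⁅b, n⁆ * ((n * n) * b * (n * n)⁻¹ * (n * b⁻¹ * n⁻¹)) := by
    simp only [commutatorElement_def]; group
  rw [e]
  exact (h.e_comm hb hx).mul_left ((h2.c1 hx hb).symm.mul_left (h.c1 hx (inv_mem hb)).symm)

theorem inv_partner {S : Set (Subgroup G)} (hS : IsRootSubgroupSet S) (hA : A ∈ S) (hB : B ∈ S)
    (hne : conjBy B n ≠ B) {a b : G} (ha : a ∈ A) (hb : b ∈ B) (e : conjBy A b = conjBy B a) :
    conjBy A b⁻¹ = conjBy B a⁻¹ := by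
  have hb1 := partner_ne_one h.r ha e
  obtain ⟨a', ha', -, e'⟩ := rankOne_exists_right h.r (inv_mem hb) (inv_ne_one.mpr hb1)
  by_cases haa : a * a' = 1
  · rw [e', eq_inv_of_mul_eq_one_right haa]
  exfalso
  have z1 := h.z_mem hF ha hb
  have z1B := fun x hx => h.zB hb e (x := x) hx
  have z2 := h.z_mem hF ha' (inv_mem hb)
  have z2B := fun x hx => h.zB (inv_mem hb) e' (x := x) hx
  rw [h.e_inv hb, inv_inv] at z2 z2B
  have yB := fun x hx => h.yB h2 hb (x := x) hx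
  have f1 := h.fix hF z1 z1B hb
  have m1 := h.conj_mem_FF hb (mem_FF ha)
  have m2 := h.conj_mem_FF hb (mem_FF ha')
  have m3 := h.conj_mem_FF hb hF
  set ε := ⁅b, n⁆ with hε
  have : IsMulCommutative (FF A B n) := isMulCommutative_iff.mpr fun x hx y hy => h.FF_comm hx hy
  let : CommGroup (FF A B n) := { (inferInstance : Group (FF A B n)) with mul_comm := mul_comm' }
  have key := congrArg Subtype.val (inv_aux (a := (⟨a, mem_FF ha⟩ : FF A B n)) (a1 := ⟨_, m1⟩)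
    (a' := ⟨a', mem_FF ha'⟩) (a1' := ⟨_, m2⟩) (n := ⟨n, hF⟩) (n1 := ⟨_, m3⟩))
  simp only [coe_mul, coe_inv] at key
  have r1 : a⁻¹ * (ε * a * ε⁻¹) * (ε * n * ε⁻¹) = ε⁻¹ * a⁻¹ * ε * n * a := by
    rw [← f1, mul_assoc _ n a, h.cA a ha]; group
  have r2 : (ε * a' * ε⁻¹)⁻¹ * a' * n = ε * a'⁻¹ * ε⁻¹ * n * a' := by
    rw [mul_assoc _ n a', h.cA a' ha']; group
  rw [r1, r2] at key
  have wF := mul_mem (mul_mem z1 (inv_mem (mul_mem m3 (inv_mem hF)))) (inv_mem z2)
  have hmem : ε * a * ε⁻¹ * (ε * a' * ε⁻¹) ∈ conjBy A ε :=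
    mul_mem (conj_mem_conjBy ha _) (conj_mem_conjBy ha' _)
  rw [key] at hmem
  have w1 := root_central_translate hS hB h.r (fun x hx => h.FF_comm wF (mem_FF hx))
    (fun x hx => ((z1B x hx).mul_left (yB x hx).inv_left).mul_left (z2B x hx).inv_left)
    (mul_mem ha ha') haa (hS.conj_mem A hA ε) hmem
  rw [w1, one_mul] at hmem
  exact h.conj_ne hne hb hb1
    (root_eq_of_mem hS hB h.r (hS.conj_mem A hA ε) (mul_mem ha ha') haa hmem).symm

theorem cubic {a b : G} (ha : a ∈ A) (hb : b ∈ B) (e : conjBy A b = conjBy B a) :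
    a ∈ conjBy A ⁅b, n⁆ ⊔ conjBy A ⁅b * b, n⁆ ⊔ conjBy A ⁅b * (b * b), n⁆ := by
  have f1 := h.fix hF (h.z_mem hF ha hb) (fun x hx => h.zB hb e hx) hb
  have n1 := h.conj_mem_FF hb hF
  have n2 := h.conj_mem_FF hb n1
  have n3 := h.conj_mem_FF hb n2
  have f2 := h.fix hF (mul_mem n1 (inv_mem hF)) (fun x hx => h.yB h2 hb hx) hb
  have a1 := h.conj_mem_FF hb (mem_FF ha)
  have a2 := h.conj_mem_FF hb a1
  have a3 := h.conj_mem_FF hb a2
  rw [h.e_mul hb (mul_mem hb hb), h.e_mul hb hb]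
  set ε := ⁅b, n⁆ with hε
  rw [mul_assoc _ n a, h.cA a ha] at f1
  have : IsMulCommutative (FF A B n) := isMulCommutative_iff.mpr fun x hx y hy => h.FF_comm hx hy
  let : CommGroup (FF A B n) := { (inferInstance : Group (FF A B n)) with mul_comm := mul_comm' }
  have g1 := congrArg (fun x => ε * x * ε⁻¹) f1
  have g2 := congrArg (fun x => ε * x * ε⁻¹) g1
  have g3 := congrArg (fun x => ε * x * ε⁻¹) f2
  have key := congrArg Subtype.val (cubic_aux (a := (⟨a, mem_FF ha⟩ : FF A B n)) (a1 := ⟨_, a1⟩)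
    (a2 := ⟨_, a2⟩) (a3 := ⟨_, a3⟩) (n1 := ⟨_, n1⟩) (n2 := ⟨_, n2⟩) (n3 := ⟨_, n3⟩)
    (Subtype.ext (by
      simp only [coe_mul, coe_inv]
      calc _ = ε * (ε⁻¹ * a⁻¹ * ε * (a * n)) * ε⁻¹ := by group
        _ = _ := by rw [← g1]; group))
    (Subtype.ext (by
      simp only [coe_mul, coe_inv]
      calc _ = ε * (ε * (ε⁻¹ * a⁻¹ * ε * (a * n)) * ε⁻¹) * ε⁻¹ := by group
        _ = _ := by rw [← g2]; simp only [mul_assoc, mul_inv_rev, inv_inv, mul_inv_cancel_left,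
            inv_mul_cancel_left]))
    (Subtype.ext (by
      simp only [coe_mul, coe_inv]
      calc _ = ε * (ε * n * ε⁻¹ * n⁻¹) * ε⁻¹ := by group
        _ = _ := by rw [← g3]; group)))
  simp only [coe_mul, coe_inv] at key
  have k1 : ε * a * ε⁻¹ ∈ conjBy A ε ⊔ conjBy A (ε * ε) ⊔ conjBy A (ε * (ε * ε)) :=
    mem_sup_left (mem_sup_left (conj_mem_conjBy ha _))
  have k2 : ε * (ε * a * ε⁻¹) * ε⁻¹ ∈ conjBy A ε ⊔ conjBy A (ε * ε) ⊔ conjBy A (ε * (ε * ε)) :=
    mem_sup_left (mem_sup_right (by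
      rw [← conjBy_conjBy]; exact conj_mem_conjBy (conj_mem_conjBy ha _) _))
  have k3 : ε * (ε * (ε * a * ε⁻¹) * ε⁻¹) * ε⁻¹ ∈
      conjBy A ε ⊔ conjBy A (ε * ε) ⊔ conjBy A (ε * (ε * ε)) :=
    mem_sup_right (by
      rw [← conjBy_conjBy, ← conjBy_conjBy]
      exact conj_mem_conjBy (conj_mem_conjBy (conj_mem_conjBy ha _) _) _)
  rw [key]
  exact mul_mem (mul_mem (mul_mem (mul_mem k1 k1) k1) (inv_mem (mul_mem (mul_mem k2 k2) k2))) k3

end core

end Good

variable {S : Set (Subgroup G)} {C D E : Subgroup G}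

theorem triangle_good (hS : IsRootSubgroupSet S) (hA : A ∈ S) (hB : B ∈ S)
    (hAB : IsRankOnePair A B) (hCB : IsRankOnePair C B) (hAC : ⁅A, C⁆ = ⊥) (hne : A ≠ C) :
    ∃ m, Good A B m ∧ conjBy B m ≠ B ∧ m ∈ Good.FF A B m ∧ Good A B (m * m) := by
  obtain ⟨b, hb, hb1⟩ := rankOne_exists_ne_one (RankOnePair_symm hAB)
  obtain ⟨a, ha, -, e⟩ := rankOne_exists_right hAB hb hb1
  obtain ⟨c, hc, -, e'⟩ := rankOne_exists_right hCB hb hb1
  have hAA := root_self_comm hS hA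
  refine Good.normalize (n := a⁻¹ * c) ⟨hAB, hAA, root_self_comm hS hB, fun x hx => ?_, ?_⟩ ?_
  · exact (Commute.inv_left (comm_of_commutator_eq_bot hAA ha hx)).mul_left
      (comm_of_commutator_eq_bot hAC hx hc).symm
  · have := conj_commutator_eq_bot (conj_commutator_eq_bot hAC b) a⁻¹
    rwa [e, e', conjBy_inv_cancel, conjBy_conjBy] at this
  · intro e1
    rw [← conjBy_conjBy, conjBy_eq_iff, inv_inv, ← e, ← e', conjBy_inj] at e1
    exact hne e1.symm

theorem triangle_special (hS : IsRootSubgroupSet S) (hA : A ∈ S) (hB : B ∈ S)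
    (hAB : IsRankOnePair A B) (hCB : IsRankOnePair C B) (hAC : ⁅A, C⁆ = ⊥) (hne : A ≠ C) :
    IsSpecialRankOnePair A B := by
  obtain ⟨m, h, h1, h2, h3⟩ := triangle_good hS hA hB hAB hCB hAC hne
  exact special_of_inv hAB fun a ha b hb e => h.inv_partner h2 h3 hS hA hB h1 ha hb e

theorem mem_commutingPartners_conjBy (hS : IsRootSubgroupSet S) (h : C ∈ commutingPartners S A)
    (g : G) : conjBy C g ∈ commutingPartners S (conjBy A g) :=
  ⟨hS.conj_mem C h.1 g, fun e => h.2.1 (conjBy_inj.mp e), conj_commutator_eq_bot h.2.2 g⟩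

theorem commutingPartners_conjBy (hS : IsRootSubgroupSet S)
    (h : commutingPartners S A = commutingPartners S B) (g : G) :
    commutingPartners S (conjBy A g) = commutingPartners S (conjBy B g) := by
  have key : ∀ {A B : Subgroup G}, commutingPartners S A = commutingPartners S B →
      commutingPartners S (conjBy A g) ⊆ commutingPartners S (conjBy B g) := by
    intro A B h C hC
    have := mem_commutingPartners_conjBy hS hC g⁻¹
    rw [conjBy_inv_cancel, h] at this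
    have := mem_commutingPartners_conjBy hS this g
    rwa [conjBy_cancel_inv] at this
  exact (key h).antisymm (key h.symm)

theorem commutingPartners_symm (hA : A ∈ S) (h : C ∈ commutingPartners S A) :
    A ∈ commutingPartners S C := ⟨hA, h.2.1.symm, commutator_eq_bot_symm h.2.2⟩

theorem deg_rankOne (hS : IsRootSubgroupSet S) (hd : IsDegenerateRootSet S) (hA : A ∈ S)
    (hB : B ∈ S) (h : ⁅A, B⁆ ≠ ⊥) : IsRankOnePair A B :=
  ((hS.pair A hA B hB).resolve_left h).resolve_right (hd A hA B hB)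

theorem exists_triangle (hS : IsRootSubgroupClass S) (hd : IsDegenerateRootSet S)
    (hcomm : ∃ A ∈ S, ∃ C ∈ S, A ≠ C ∧ ⁅A, C⁆ = ⊥) (hA : A ∈ S) (hB : B ∈ S)
    (hAB : IsRankOnePair A B) :
    ∃ E ∈ S, ∃ C ∈ commutingPartners S A, IsRankOnePair A E ∧ IsRankOnePair C E := by
  by_contra hn
  have h1 : ∀ D ∈ S, ∀ E ∈ S, IsRankOnePair D E →
      commutingPartners S D ⊆ commutingPartners S E := by
    intro D hD E hE hDE C hC
    obtain ⟨g, rfl⟩ := hS.2.2 D hD A hA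
    refine ⟨hC.1, fun e => rankOne_commutator_ne_bot hDE (e ▸ hC.2.2), ?_⟩
    by_contra hc
    exact hn ⟨_, hS.1.conj_mem E hE g, _, mem_commutingPartners_conjBy hS.1 hC g,
      rankOne_conjBy hDE g, rankOne_conjBy (RankOnePair_symm (deg_rankOne hS.1 hd hE hC.1 hc)) g⟩
  obtain ⟨A0, hA0, C0, hC0, hne, hc⟩ := hcomm
  have h2 : ∀ D, ReflTransGen (FAdj S) A0 D → C0 ∈ commutingPartners S D := by
    intro D hD
    induction hD with
    | refl => exact ⟨hC0, hne.symm, hc⟩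
    | tail _ h ih => exact h1 _ h.1 _ h.2.1 h.2.2 ih
  exact (h2 C0 (class_connected hS hA hB hAB A0 hA0 C0 hC0)).2.1 rfl

/-- If a rank one pair has the same commuting partners, then `N_X(A)` centralizes `A`. -/
theorem same_partners_centralizes (hS : IsRootSubgroupSet S) (hA : A ∈ S)
    (hE : E ∈ S) (hAE : IsRankOnePair A E) (hBE : IsRankOnePair B E) (hCE : IsRankOnePair C E)
    (hC : C ∈ commutingPartners S A) (hs : commutingPartners S A = commutingPartners S B)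
    {x : G} (hx : x ∈ A ⊔ B) (hn : conjBy A x = A) {a : G} (ha : a ∈ A) : x * a * x⁻¹ = a := by
  have key : ∀ {A B : Subgroup G}, IsRankOnePair A E → IsRankOnePair B E →
      commutingPartners S A = commutingPartners S B → ∀ b ∈ B, ∃ a ∈ A,
      commutingPartners S (conjBy E b) = commutingPartners S (conjBy E a) := by
    intro A B hAE hBE hs b hb
    by_cases hb1 : b = 1
    · exact ⟨1, one_mem _, by rw [hb1]⟩
    obtain ⟨e, he, he1, e1⟩ := rankOne_exists_left hBE hb hb1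
    obtain ⟨a, ha, -, e2⟩ := rankOne_exists_right hAE he he1
    exact ⟨a, ha, by rw [← e1, ← e2]; exact commutingPartners_conjBy hS hs.symm e⟩
  have theta : ∀ x ∈ A ⊔ B, ∀ a' ∈ A, ∃ a ∈ A,
      commutingPartners S (conjBy E (x * a')) = commutingPartners S (conjBy E a) := by
    intro x hx
    rw [sup_eq_iSup] at hx
    refine iSup_induction _ (C := fun x => ∀ a' ∈ A, ∃ a ∈ A,
      commutingPartners S (conjBy E (x * a')) = commutingPartners S (conjBy E a)) hx ?_ ?_ ?_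
    · rintro (_ | _) x hx a' ha'
      · obtain ⟨b, hb, e1⟩ := key hBE hAE hs.symm a' ha'
        obtain ⟨a, ha, e2⟩ := key hAE hBE hs (x * b) (mul_mem hx hb)
        refine ⟨a, ha, ?_⟩
        rw [← e2, ← conjBy_conjBy, ← conjBy_conjBy]
        exact commutingPartners_conjBy hS e1 x
      · exact ⟨_, mul_mem hx ha', rfl⟩
    · intro a' ha'; exact ⟨a', ha', by rw [one_mul]⟩
    · intro x y hx hy a' ha'
      obtain ⟨a1, ha1, e1⟩ := hy a' ha'
      obtain ⟨a2, ha2, e2⟩ := hx a1 ha1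
      refine ⟨a2, ha2, ?_⟩
      rw [← e2, mul_assoc, ← conjBy_conjBy, ← conjBy_conjBy E a1]
      exact commutingPartners_conjBy hS e1 x
  by_cases ha1 : a = 1
  · simp [ha1]
  obtain ⟨a1, ha1', e0⟩ := theta x hx 1 (one_mem _)
  rw [mul_one] at e0
  obtain ⟨e, he, he1, e1⟩ := rankOne_exists_left hAE ha ha1
  obtain ⟨c, hc, hc1, e2⟩ := rankOne_exists_right hCE he he1
  have hXC : ⁅A ⊔ B, C⁆ = ⊥ := commutator_sup_left_eq_bot hC.2.2 (hs ▸ hC).2.2
  have ha' : x * a * x⁻¹ ∈ A := hn ▸ conj_mem_conjBy ha x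
  have p1 : conjBy E c ∈ commutingPartners S (conjBy E a) := by
    rw [← e1, ← e2]; exact mem_commutingPartners_conjBy hS hC e
  have p2 := mem_commutingPartners_conjBy hS p1 x
  rw [conjBy_conjBy, conjBy_conjBy, show x * a = x * a * x⁻¹ * x by group, ← conjBy_conjBy E x,
    commutingPartners_conjBy hS e0, comm_of_commutator_eq_bot hXC hx hc,
    ← conjBy_conjBy E x c] at p2
  have p3 := commutingPartners_symm (hS.conj_mem _ (hS.conj_mem _ hE _) _) p2
  rw [commutingPartners_conjBy hS e0] at p3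
  have p4 := conj_commutator_eq_bot p3.2.2 a1⁻¹
  rw [conjBy_conjBy, conjBy_conjBy, conjBy_conjBy, conjBy_conjBy, mul_assoc, mul_assoc,
    ← comm_of_commutator_eq_bot hC.2.2 ha1' hc,
    comm_of_commutator_eq_bot (root_self_comm hS hA) ha' ha1', inv_mul_cancel_left,
    inv_mul_cancel_left] at p4
  by_contra hne
  have u1 := conjBy_mem_unip (rankOne_right_mem_unip hAE) (mem_sup_left ha')
  have u2 := conjBy_mem_unip (rankOne_right_mem_unip hAE) (mem_sup_left ha)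
  have p5 := commutator_sup_right_eq_bot p4 (commutator_eq_bot_symm p1.2.2)
  rw [rankOne_sup_of_mem_unip hAE u1 u2 fun e => hne (rankOne_conjBy_inj hAE ha' ha e)] at p5
  exact rankOne_commutator_ne_bot (rankOne_self_conjBy (RankOnePair_symm hCE) hc hc1).1
    (commutator_eq_bot_symm (commutator_eq_bot_of_le p5 le_rfl le_sup_right))

theorem exists_sq_ne_one_of_card {k : Type*} [Field k] (h : 3 < ENat.card k) :
    ∃ t : k, t ≠ 0 ∧ t * t ≠ 1 := by
  by_contra hc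
  push Not at hc
  have : (Set.univ : Set k) ⊆ {0, 1, -1} := fun t _ => by
    by_cases h0 : t = 0
    · simp [h0]
    · rcases mul_self_eq_one_iff.mp (hc t h0) with e | e <;> simp [e]
  have h1 := Set.encard_le_encard this
  have h2 : ({0, 1, -1} : Set k).encard ≤ 3 := by
    refine (Set.encard_insert_le _ _).trans ?_
    refine (add_le_add_left (Set.encard_insert_le _ _) 1).trans ?_
    rw [Set.encard_singleton]; rfl
  rw [Set.encard_univ] at h1
  exact absurd (h1.trans h2) (not_le.mpr h)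

theorem psl2_diag {k : Type*} [Field k] (hk : 3 < ENat.card k) {A₀ B₀ : Subgroup G}
    (h : IsPSL2PairOver k A₀ B₀) :
    ∃ x ∈ A₀ ⊔ B₀, ∃ a ∈ A₀, x * a * x⁻¹ ∈ A₀ ∧ x * a * x⁻¹ ≠ a := by
  obtain ⟨φ, h1, h2, h3, -⟩ := h
  obtain ⟨t, t0, t1⟩ := exists_sq_ne_one_of_card hk
  let d : SL(2, k) := ⟨!![t, 0; 0, t⁻¹], by simp [Matrix.det_fin_two, t0]⟩
  have e : d * xx 1 = xx (t * t) * d := by
    have d00 : d 0 0 = t := rfl
    have d01 : d 0 1 = 0 := rfl
    have d10 : d 1 0 = 0 := rfl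
    have d11 : d 1 1 = t⁻¹ := rfl
    apply sl2_ext <;> rw [sl2_mul_apply, sl2_mul_apply] <;> simp [d00, d01, d10, d11, t0]
  have e' : φ d * φ (xx 1) * (φ d)⁻¹ = φ (xx (t * t)) := by
    rw [← map_mul, e, map_mul, mul_inv_cancel_right]
  refine ⟨φ d, h1 ▸ ⟨d, rfl⟩, φ (xx 1), h3 ▸ mem_map_of_mem _ (xx_mem_upper 1), ?_, fun e2 => ?_⟩
  · rw [e', ← h3]; exact mem_map_of_mem _ (xx_mem_upper _)
  · rw [e'] at e2
    have : xx (t * t - 1) ∈ φ.ker := by
      rw [MonoidHom.mem_ker, sub_eq_add_neg, ← xx_mul, ← xx_inv, map_mul, e2, map_inv,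
        mul_inv_cancel]
    have h4 := congrArg (fun g : SL(2, k) => g 1 1) (mem_center_iff.mp (h2 this) (yy 1))
    simp only [sl2_mul_apply, xx_01, xx_11, yy_10, yy_11, xx_10, yy_01] at h4
    exact t1 (by linear_combination h4)

end Cfsg.Agent.RootSub
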